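/-
A group of order `2^6 3^6 7 13` in which every element of order divisible by `13` has order `13`, and two commuting
three-transposition triples: the local structure at a subgroup of order `13`.
-/
import Mathlib
import Cfsg.Agent.Lib.Fischer.M22.Rows.Prime

set_option autoImplicit false

namespace Cfsg.Agent.Lib.Fischer.M24.Th13

open Cfsg.Agent.Lib.Fischer.M22.Rows.Prime

section Small

variable {Y : Type*} [Group Y] [Finite Y]

instance fact13 : Fact (Nat.Prime 13) := ⟨by norm_num⟩

theorem factor13 (hY : Nat.card Y = 4245696) : (Nat.card Y).factorization 13 = 1 := by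
  rw [hY, show (4245696 : ℕ) = 13 * 326592 by norm_num, Nat.factorization_mul (by norm_num) (by norm_num),
    Finsupp.add_apply, Nat.Prime.factorization_self (by norm_num)]
  have : (326592 : ℕ).factorization 13 = 0 := Nat.factorization_eq_zero_of_not_dvd (by norm_num)
  omega

/-- The centralizer of an element of order `13`. -/
theorem card_centralizer13 (hY : Nat.card Y = 4245696) (h13 : ∀ y : Y, 13 ∣ orderOf y → orderOf y = 13) {x : Y}
    (hx : orderOf x = 13) : Nat.card (Subgroup.centralizer ({x} : Set Y)) = 13 := by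
  set C := Subgroup.centralizer ({x} : Set Y) with hC
  have hxC : x ∈ C := Subgroup.mem_centralizer_singleton_iff.2 rfl
  have hz : (Subgroup.zpowers x) ≤ C := (Subgroup.zpowers_le).2 hxC
  have h1 : 13 ∣ Nat.card C := by
    have h2 : Nat.card (Subgroup.zpowers x) ∣ Nat.card C := Subgroup.card_dvd_of_le hz
    rwa [Nat.card_zpowers, hx] at h2
  have h3 : Nat.card C ∣ 4245696 := by
    rw [← hY]
    exact Subgroup.card_subgroup_dvd_card C
  obtain ⟨m, hm⟩ := h1
  have hm13 : ¬ 13 ∣ m := by
    intro h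
    obtain ⟨n, rfl⟩ := h
    rw [hm] at h3
    have : 13 * 13 ∣ 4245696 := Dvd.dvd.trans ⟨n, by ring⟩ h3
    norm_num at this
  have hm1 : m = 1 := by
    by_contra hne
    obtain ⟨r, hr, hrm⟩ := Nat.exists_prime_and_dvd hne
    haveI : Fact r.Prime := ⟨hr⟩
    have hrC : r ∣ Nat.card C := by rw [hm]; exact Dvd.dvd.mul_left hrm 13
    obtain ⟨z, hz⟩ := exists_prime_orderOf_dvd_card' r hrC
    have hzx : Commute (z : Y) x := Subgroup.mem_centralizer_singleton_iff.1 z.2
    have hr13 : r ≠ 13 := by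
      rintro rfl
      exact hm13 hrm
    have hcop : Nat.Coprime (orderOf (z : Y)) (orderOf x) := by
      rw [Subgroup.orderOf_coe, hz, hx]
      exact (Nat.coprime_primes hr (by norm_num)).2 hr13
    have h4 := hzx.orderOf_mul_eq_mul_orderOf_of_coprime hcop
    rw [Subgroup.orderOf_coe, hz, hx] at h4
    have h5 : orderOf ((z : Y) * x) = 13 := h13 _ (by rw [h4]; exact Dvd.intro_left r rfl)
    rw [h4] at h5
    have : r = 1 := by omega
    exact hr.one_lt.ne' this
  rw [hm, hm1]

/-- The normalizer of a subgroup of order `13`. -/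
theorem card_normalizer13 (hY : Nat.card Y = 4245696) (h13 : ∀ y : Y, 13 ∣ orderOf y → orderOf y = 13) {x : Y}
    (hx : orderOf x = 13) :
    Nat.card (Subgroup.normalizer ((Subgroup.zpowers x : Subgroup Y) : Set Y)) = 78 := by
  set N := Subgroup.normalizer ((Subgroup.zpowers x : Subgroup Y) : Set Y) with hN
  have h1 := card_normalizer_le hx
  rw [card_centralizer13 hY h13 hx] at h1
  have hcz : Nat.card (Subgroup.zpowers x) = 13 := by rw [Nat.card_zpowers, hx]
  have h2 := index_normalizer_modEq (factor13 hY) hcz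
  have h3 : N.index * Nat.card N = 4245696 := by
    rw [mul_comm, Subgroup.card_mul_index, hY]
  have h4 : Nat.card (Subgroup.zpowers x) ∣ Nat.card N := Subgroup.card_dvd_of_le Subgroup.le_normalizer
  rw [hcz] at h4
  obtain ⟨m, hm⟩ := h4
  rw [hm] at h3 h1
  have hm12 : m ≤ 12 := by omega
  have h5 : N.index % 13 = 1 := h2
  rw [hm]
  have hm0 : m ≠ 0 := by
    rintro rfl
    simp at h3
  have : m = 6 := by
    interval_cases m <;> first | rfl | omega | skip
  subst this
  rfl

end Small


section Main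

variable {X : Type*} [Group X]

/-- The two commuting triples of transpositions. -/
structure Cfg (D : Set X) (a d b c : X) : Prop where
  conj : ∀ g : X, ∀ u ∈ D, g * u * g⁻¹ ∈ D
  sq : ∀ u ∈ D, u * u = 1
  br : ∀ u ∈ D, ∀ v ∈ D, Commute u v ∨ u * v * u = v * u * v
  ha : a ∈ D
  hd : d ∈ D
  hb : b ∈ D
  hc : c ∈ D
  nad : ¬ Commute a d
  nbc : ¬ Commute b c
  ab : Commute a b
  ac : Commute a c
  db : Commute d b
  dc : Commute d c

/-- A triple. -/
def Tr (a d : X) (u : X) : Prop := u = a ∨ u = d ∨ u = a * d * a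

section Tri

variable {a d : X} (ha : a * a = 1) (hd : d * d = 1) (hb : a * d * a = d * a * d) (hn : ¬ Commute a d)
include ha hd hb

theorem ainv : a⁻¹ = a := inv_eq_of_mul_eq_one_left ha

theorem dinv : d⁻¹ = d := inv_eq_of_mul_eq_one_left hd

/-- The rewriting rules. -/
theorem tri_trans_aux : (∀ x, a * (a * x) = x) ∧ (∀ x, d * (d * x) = x) ∧ (∀ x, a * (d * (a * x)) = d * (a * (d * x))) ∧
    (a * (d * a) = d * (a * d)) := by
  refine ⟨fun x => by rw [← mul_assoc, ha, one_mul], fun x => by rw [← mul_assoc, hd, one_mul], fun x => ?_, ?_⟩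
  · calc a * (d * (a * x)) = (a * d * a) * x := by group
      _ = (d * a * d) * x := by rw [hb]
      _ = d * (a * (d * x)) := by group
  · simpa only [mul_assoc] using hb

/-- The transitivity on ordered pairs. -/
theorem tri_trans {u v : X} (hu : Tr a d u) (hv : Tr a d v) (huv : u ≠ v) :
    ∃ w ∈ Subgroup.closure ({a, d} : Set X), w * a * w⁻¹ = u ∧ w * d * w⁻¹ = v := by
  obtain ⟨h1, h2, h3, h4⟩ := tri_trans_aux ha hd hb
  have mA : a ∈ Subgroup.closure ({a, d} : Set X) := Subgroup.subset_closure (by simp)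
  have mD : d ∈ Subgroup.closure ({a, d} : Set X) := Subgroup.subset_closure (by simp)
  have iA := ainv ha hd hb
  have iD := dinv ha hd hb
  rcases hu with hu | hu | hu <;> rcases hv with hv | hv | hv
  · exact absurd (hu.trans hv.symm) huv
  · exact ⟨1, one_mem _, by rw [hu]; simp, by rw [hv]; simp⟩
  · refine ⟨a, mA, ?_, ?_⟩
    · rw [hu]; simp only [iA, mul_assoc, h1, ha, mul_one, one_mul]
    · rw [hv]; simp only [iA, mul_assoc, h1, ha, mul_one, one_mul]
  · refine ⟨a * d * a, mul_mem (mul_mem mA mD) mA, ?_, ?_⟩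
    · rw [hu]; simp only [mul_inv_rev, iA, iD, mul_assoc, h1, h2, h3, h4, ha, hd, mul_one]
    · rw [hv]; simp only [mul_inv_rev, iA, iD, mul_assoc, h1, h2, h3, h4, ha, hd, mul_one]
  · exact absurd (hu.trans hv.symm) huv
  · refine ⟨a * d, mul_mem mA mD, ?_, ?_⟩
    · rw [hu]; simp only [mul_inv_rev, iA, iD, mul_assoc, h1, h2, h3, h4, ha, hd, mul_one]
    · rw [hv]; simp only [mul_inv_rev, iA, iD, mul_assoc, h1, h2, h3, h4, ha, hd, mul_one]
  · refine ⟨d * a, mul_mem mD mA, ?_, ?_⟩
    · rw [hu]; simp only [mul_inv_rev, iA, iD, mul_assoc, h1, h2, h3, h4, ha, hd, mul_one]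
    · rw [hv]; simp only [mul_inv_rev, iA, iD, mul_assoc, h1, h2, h3, h4, ha, hd, mul_one]
  · refine ⟨d, mD, ?_, ?_⟩
    · rw [hu]; simp only [iD, mul_assoc, h1, h2, h3, h4, hd, mul_one, one_mul]
    · rw [hv]; simp only [iD, mul_assoc, h1, h2, h3, h4, hd, mul_one, one_mul]
  · exact absurd (hu.trans hv.symm) huv

/-- Two distinct elements of a triple do not commute. -/
theorem tri_nc (hn : ¬ Commute a d) {u v : X} (hu : Tr a d u) (hv : Tr a d v) (huv : Commute u v) : u = v := by
  obtain ⟨h1, h2, h3, h4⟩ := tri_trans_aux ha hd hb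
  have iA := ainv ha hd hb
  have hae : ¬ Commute a (a * d * a) := by
    intro h
    apply hn
    have e : a * (a * d * a) = (a * d * a) * a := h
    simp only [mul_assoc, h1, ha, mul_one] at e
    show a * d = d * a
    exact e.symm
  have hde : ¬ Commute d (a * d * a) := by
    intro h
    apply hn
    have e : d * (a * d * a) = (a * d * a) * d := h
    have e2 : d * (d * a * d) = (d * a * d) * d := by rw [← hb]; exact e
    simp only [mul_assoc, h2, hd, mul_one] at e2
    exact e2
  rcases hu with rfl | rfl | rfl <;> rcases hv with rfl | rfl | rfl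
  · rfl
  · exact absurd huv hn
  · exact absurd huv hae
  · exact absurd huv.symm hn
  · rfl
  · exact absurd huv hde
  · exact absurd huv.symm hae
  · exact absurd huv.symm hde
  · rfl

end Tri

/-- The step: the images of `a`, `d` and `b` in the union of two triples. -/
theorem tri_step {P Q : X → Prop} (hP : ∀ u v, P u → P v → Commute u v → u = v) (hPQ : ∀ u v, P u → Q v → Commute u v)
    {a' d' b' : X} (ha : P a') (hd : P d' ∨ Q d') (hb : P b' ∨ Q b') (nad : ¬ Commute a' d') (hab : Commute a' b')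
    (hdb : Commute d' b') (hne : a' ≠ d') : P d' ∧ Q b' := by
  have h1 : P d' := by
    rcases hd with h | h
    · exact h
    · exact absurd (hPQ _ _ ha h) nad
  refine ⟨h1, ?_⟩
  rcases hb with h | h
  · have e1 := hP _ _ ha h hab
    have e2 := hP _ _ h1 h hdb
    exact absurd (e1.trans e2.symm) hne
  · exact h


theorem conj_comm (g x y : X) : Commute (g * x * g⁻¹) (g * y * g⁻¹) ↔ Commute x y := by
  constructor
  · intro h
    have e : g * x * g⁻¹ * (g * y * g⁻¹) = g * y * g⁻¹ * (g * x * g⁻¹) := h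
    have e1 : g * (x * y) * g⁻¹ = g * (y * x) * g⁻¹ := by
      calc g * (x * y) * g⁻¹ = g * x * g⁻¹ * (g * y * g⁻¹) := by group
        _ = g * y * g⁻¹ * (g * x * g⁻¹) := e
        _ = g * (y * x) * g⁻¹ := by group
    have e2 : x * y = y * x := by
      simpa using e1
    exact e2
  · intro h
    show g * x * g⁻¹ * (g * y * g⁻¹) = g * y * g⁻¹ * (g * x * g⁻¹)
    have e : x * y = y * x := h
    calc g * x * g⁻¹ * (g * y * g⁻¹) = g * (x * y) * g⁻¹ := by group
      _ = g * (y * x) * g⁻¹ := by rw [e]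
      _ = g * y * g⁻¹ * (g * x * g⁻¹) := by group

/-- The subgroup generated by the two pairs. -/
abbrev TS (a d b c : X) : Subgroup X := Subgroup.closure ({a, b, c, d} : Set X)

/-- Its centralizer. -/
abbrev KS (a d b c : X) : Subgroup X := Subgroup.centralizer ((TS a d b c : Subgroup X) : Set X)

theorem mem_KS {a d b c x : X} : x ∈ KS a d b c ↔ Commute x a ∧ Commute x b ∧ Commute x c ∧ Commute x d := by
  constructor
  · intro h
    have h' := Subgroup.mem_centralizer_iff.1 h
    have m : ∀ y ∈ ({a, b, c, d} : Set X), Commute x y := fun y hy =>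
      (h' y (Subgroup.subset_closure hy)).symm
    exact ⟨m a (by simp), m b (by simp), m c (by simp), m d (by simp)⟩
  · rintro ⟨h1, h2, h3, h4⟩
    have hle : TS a d b c ≤ Subgroup.centralizer ({x} : Set X) := by
      rw [TS, Subgroup.closure_le]
      rintro y (rfl | rfl | rfl | rfl)
      · exact Subgroup.mem_centralizer_singleton_iff.2 h1.symm
      · exact Subgroup.mem_centralizer_singleton_iff.2 h2.symm
      · exact Subgroup.mem_centralizer_singleton_iff.2 h3.symm
      · exact Subgroup.mem_centralizer_singleton_iff.2 h4.symm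
    rw [Subgroup.mem_centralizer_iff]
    intro t ht
    exact Subgroup.mem_centralizer_singleton_iff.1 (hle ht)

theorem KS_comm {a d b c k t : X} (hk : k ∈ KS a d b c) (ht : t ∈ TS a d b c) : Commute k t :=
  (Subgroup.mem_centralizer_iff.1 hk t ht).symm

section Cfg

variable {D : Set X} {a d b c : X} (C : Cfg D a d b c)
include C

theorem Cfg.ad : a * d * a = d * a * d := (C.br a C.ha d C.hd).resolve_left C.nad

theorem Cfg.bc : b * c * b = c * b * c := (C.br b C.hb c C.hc).resolve_left C.nbc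

theorem Cfg.aa : a * a = 1 := C.sq a C.ha

theorem Cfg.dd : d * d = 1 := C.sq d C.hd

theorem Cfg.bb : b * b = 1 := C.sq b C.hb

theorem Cfg.cc : c * c = 1 := C.sq c C.hc

theorem Cfg.tr1_T {u : X} (hu : Tr a d u) : u ∈ TS a d b c := by
  have m1 : a ∈ TS a d b c := Subgroup.subset_closure (by simp)
  have m2 : d ∈ TS a d b c := Subgroup.subset_closure (by simp)
  rcases hu with rfl | rfl | rfl
  · exact m1
  · exact m2
  · exact mul_mem (mul_mem m1 m2) m1

theorem Cfg.tr2_T {u : X} (hu : Tr b c u) : u ∈ TS a d b c := by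
  have m1 : b ∈ TS a d b c := Subgroup.subset_closure (by simp)
  have m2 : c ∈ TS a d b c := Subgroup.subset_closure (by simp)
  rcases hu with rfl | rfl | rfl
  · exact m1
  · exact m2
  · exact mul_mem (mul_mem m1 m2) m1

theorem Cfg.tr_T {u : X} (hu : Tr a d u ∨ Tr b c u) : u ∈ TS a d b c := hu.elim C.tr1_T C.tr2_T

theorem Cfg.tr1_D {u : X} (hu : Tr a d u) : u ∈ D := by
  rcases hu with rfl | rfl | rfl
  · exact C.ha
  · exact C.hd
  · have := C.conj a d C.hd
    rwa [ainv C.aa C.dd C.ad] at this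

theorem Cfg.tr2_D {u : X} (hu : Tr b c u) : u ∈ D := by
  rcases hu with rfl | rfl | rfl
  · exact C.hb
  · exact C.hc
  · have := C.conj b c C.hc
    rwa [ainv C.bb C.cc C.bc] at this

theorem Cfg.cross {u v : X} (hu : Tr a d u) (hv : Tr b c v) : Commute u v := by
  have h1 : Commute u b ∧ Commute u c := by
    rcases hu with rfl | rfl | rfl
    · exact ⟨C.ab, C.ac⟩
    · exact ⟨C.db, C.dc⟩
    · exact ⟨(C.ab.mul_left C.db).mul_left C.ab, (C.ac.mul_left C.dc).mul_left C.ac⟩
  rcases hv with rfl | rfl | rfl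
  · exact h1.1
  · exact h1.2
  · exact (h1.1.mul_right h1.2).mul_right h1.1

theorem Cfg.a_ne_d : a ≠ d := by
  rintro rfl
  exact C.nad (Commute.refl _)

theorem Cfg.b_ne_c : b ≠ c := by
  rintro rfl
  exact C.nbc (Commute.refl _)

theorem Cfg.disj {u : X} (h1 : Tr a d u) (h2 : Tr b c u) : False := by
  have e1 := tri_nc C.aa C.dd C.ad C.nad h1 (Or.inl rfl) (C.cross (Or.inl rfl) h2).symm
  have e2 := tri_nc C.aa C.dd C.ad C.nad h1 (Or.inr (Or.inl rfl)) (C.cross (Or.inr (Or.inl rfl)) h2).symm
  exact C.a_ne_d (e1.symm.trans e2)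

end Cfg

variable [Finite X]

section Sub

variable {K : Subgroup X}

theorem card_sub {B : Subgroup X} (h : B ≤ K) : Nat.card (B.subgroupOf K) = Nat.card B :=
  Nat.card_congr (Subgroup.subgroupOfEquivOfLe h).toEquiv

/-- Conjugacy inside a subgroup. -/
theorem conj_inside (hK : Nat.card K = 4245696) {B₁ B₂ : Subgroup X} (h1 : B₁ ≤ K) (h2 : B₂ ≤ K)
    (c1 : Nat.card B₁ = 13) (c2 : Nat.card B₂ = 13) : ∃ k ∈ K, ∀ x ∈ B₁, k * x * k⁻¹ ∈ B₂ := by
  obtain ⟨k, hk⟩ := conj_of_card (factor13 hK) (X := B₁.subgroupOf K) (Y := B₂.subgroupOf K)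
    (by rw [card_sub h1, c1]) (by rw [card_sub h2, c2])
  refine ⟨k, k.2, fun x hx => ?_⟩
  have h3 : (⟨x, h1 hx⟩ : K) ∈ B₁.subgroupOf K := by
    rw [Subgroup.mem_subgroupOf]
    exact hx
  have h4 : (MulAut.conj k).toMonoidHom ⟨x, h1 hx⟩ ∈ B₂.subgroupOf K := by
    rw [← hk]
    exact Subgroup.mem_map_of_mem _ h3
  rw [Subgroup.mem_subgroupOf] at h4
  exact h4

end Sub

end Main

end Cfsg.Agent.Lib.Fischer.M24.Th13
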