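/-
The local structure at a subgroup of order `13` of the centralizer of two commuting triples.
-/
import Mathlib
import Cfsg.Agent.Lib.Fischer.M24.Th13.Core

set_option autoImplicit false

namespace Cfsg.Agent.Lib.Fischer.M24.Th13

open Cfsg.Agent.Lib.Fischer.M22.Rows.Prime

variable {X : Type*} [Group X] [Finite X]

variable {D : Set X} {a d b c x0 s1 : X}

section Facts

variable (C : Cfg D a d b c) (hY : Nat.card (KS a d b c) = 4245696) (hx0K : x0 ∈ KS a d b c) (hx0 : orderOf x0 = 13)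
  (hfix : ∀ u ∈ D, Commute x0 u → Tr a d u ∨ Tr b c u) {B : Subgroup X} (hBK : B ≤ KS a d b c) (hB : Nat.card B = 13)

include C hY hx0K hx0 hfix hBK hB

/-- The transpositions commuting with a subgroup of order `13`. -/
theorem fix_B {u : X} (hu : u ∈ D) (hc : ∀ x ∈ B, Commute x u) : Tr a d u ∨ Tr b c u := by
  have hz : Subgroup.zpowers x0 ≤ KS a d b c := (Subgroup.zpowers_le).2 hx0K
  have hzc : Nat.card (Subgroup.zpowers x0) = 13 := by rw [Nat.card_zpowers, hx0]
  obtain ⟨k, hk, hkx⟩ := conj_inside hY hz hBK hzc hB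
  have h1 : k * x0 * k⁻¹ ∈ B := hkx x0 (Subgroup.mem_zpowers x0)
  have h2 : Commute (k * x0 * k⁻¹) u := hc _ h1
  have h3 : k⁻¹ * u * k ∈ D := by
    have := C.conj k⁻¹ u hu
    rwa [inv_inv] at this
  have h4 : Commute x0 (k⁻¹ * u * k) := by
    have e := (conj_comm k x0 (k⁻¹ * u * k)).1
    apply e
    have e2 : k * (k⁻¹ * u * k) * k⁻¹ = u := by group
    rw [e2]
    exact h2
  have h5 := hfix _ h3 h4
  have h6 : k⁻¹ * u * k ∈ TS a d b c := C.tr_T h5
  have h7 : k * (k⁻¹ * u * k) * k⁻¹ = k⁻¹ * u * k := by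
    have e : k * (k⁻¹ * u * k) = (k⁻¹ * u * k) * k := KS_comm hk h6
    rw [e]
    group
  have e2 : k * (k⁻¹ * u * k) * k⁻¹ = u := by group
  rw [e2] at h7
  rw [h7]
  exact h5

/-- The normalizer permutes the two triples. -/
theorem norm_tr {g : X} (hg : g ∈ Subgroup.normalizer (B : Set X)) {u : X} (hu : Tr a d u ∨ Tr b c u) :
    Tr a d (g * u * g⁻¹) ∨ Tr b c (g * u * g⁻¹) := by
  have hT := C.tr_T hu
  have hD : u ∈ D := hu.elim C.tr1_D C.tr2_D
  refine fix_B C hY hx0K hx0 hfix hBK hB (C.conj g u hD) ?_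
  intro x hx
  have h1 : g⁻¹ * x * g ∈ B := by
    have h2 := (Subgroup.mem_set_normalizer_iff''.1 hg x).1 hx
    exact h2
  have h2 : Commute (g⁻¹ * x * g) u := KS_comm (hBK h1) hT
  have h3 := (conj_comm g (g⁻¹ * x * g) u).2 h2
  have e : g * (g⁻¹ * x * g) * g⁻¹ = x := by group
  rwa [e] at h3

/-- The normalizer of the subgroup normalizes the centralizer. -/
theorem norm_K_aux {g : X} (hg : g ∈ Subgroup.normalizer (B : Set X)) {h : X} (hh : h ∈ KS a d b c) :
    g * h * g⁻¹ ∈ KS a d b c := by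
  have hgi : g⁻¹ ∈ Subgroup.normalizer (B : Set X) := inv_mem hg
  have key : ∀ u, (Tr a d u ∨ Tr b c u) → Commute (g * h * g⁻¹) u := by
    intro u hu
    have h1 := norm_tr C hY hx0K hx0 hfix hBK hB hgi hu
    have h2 : Commute h (g⁻¹ * u * g⁻¹⁻¹) := KS_comm hh (C.tr_T h1)
    have h3 := (conj_comm g h (g⁻¹ * u * g⁻¹⁻¹)).2 h2
    have e : g * (g⁻¹ * u * g⁻¹⁻¹) * g⁻¹ = u := by group
    rwa [e] at h3
  exact mem_KS.2 ⟨key _ (Or.inl (Or.inl rfl)), key _ (Or.inr (Or.inl rfl)), key _ (Or.inr (Or.inr (Or.inl rfl))),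
    key _ (Or.inl (Or.inr (Or.inl rfl)))⟩

theorem norm_le_norm_K : Subgroup.normalizer (B : Set X) ≤ Subgroup.normalizer ((KS a d b c : Subgroup X) : Set X) := by
  intro g hg
  rw [Subgroup.mem_set_normalizer_iff]
  intro h
  refine ⟨norm_K_aux C hY hx0K hx0 hfix hBK hB hg, fun hh => ?_⟩
  have := norm_K_aux C hY hx0K hx0 hfix hBK hB (inv_mem hg) hh
  have e : g⁻¹ * (g * h * g⁻¹) * g⁻¹⁻¹ = h := by group
  rwa [e] at this

end Facts

section Card

variable {K B : Subgroup X} (hY : Nat.card K = 4245696) (h13 : ∀ y : K, 13 ∣ orderOf y → orderOf y = 13) (hBK : B ≤ K)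
  (hB : Nat.card B = 13)

include hB in
theorem exists_gen : ∃ z ∈ B, orderOf z = 13 ∧ B = Subgroup.zpowers z := by
  obtain ⟨z, hz⟩ := exists_prime_orderOf_dvd_card' (G := B) 13 (by rw [hB])
  have hz' : orderOf (z : X) = 13 := by rw [Subgroup.orderOf_coe, hz]
  refine ⟨z, z.2, hz', ?_⟩
  symm
  apply Subgroup.eq_of_le_of_card_ge ((Subgroup.zpowers_le).2 z.2)
  rw [hB, Nat.card_zpowers, hz']

include hY h13 hBK hB

theorem K_inf_C : K ⊓ Subgroup.centralizer (B : Set X) = B := by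
  obtain ⟨z, hzB, hz, rfl⟩ := exists_gen hB
  let y : K := ⟨z, hBK hzB⟩
  have hy : orderOf y = 13 := by rw [Subgroup.orderOf_mk, hz]
  have h1 := card_centralizer13 hY h13 hy
  have h2 : Subgroup.zpowers y = Subgroup.centralizer ({y} : Set K) := by
    apply Subgroup.eq_of_le_of_card_ge
    · rw [Subgroup.zpowers_le]
      exact Subgroup.mem_centralizer_singleton_iff.2 rfl
    · rw [h1, Nat.card_zpowers, hy]
  apply le_antisymm
  · rintro x ⟨hxK, hxC⟩
    have h3 : (⟨x, hxK⟩ : K) ∈ Subgroup.centralizer ({y} : Set K) := by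
      rw [Subgroup.mem_centralizer_singleton_iff]
      apply Subtype.ext
      exact ((Subgroup.mem_centralizer_iff.1 hxC) z (Subgroup.mem_zpowers z)).symm
    rw [← h2] at h3
    obtain ⟨i, hi⟩ := Subgroup.mem_zpowers_iff.1 h3
    have h4 : (z : X) ^ i = x := congrArg Subtype.val hi
    rw [← h4]
    exact Subgroup.zpow_mem_zpowers z i
  · intro x hx
    refine ⟨hBK hx, ?_⟩
    refine Subgroup.mem_centralizer_iff.2 ?_
    intro w hw
    obtain ⟨i, rfl⟩ := Subgroup.mem_zpowers_iff.1 hx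
    obtain ⟨j, rfl⟩ := Subgroup.mem_zpowers_iff.1 hw
    exact ((Commute.refl z).zpow_zpow j i).eq

theorem card_K_inf_N : Nat.card ↥(K ⊓ Subgroup.normalizer (B : Set X)) = 78 := by
  obtain ⟨z, hzB, hz, hBz⟩ := exists_gen hB
  let y : K := ⟨z, hBK hzB⟩
  have hy : orderOf y = 13 := by rw [Subgroup.orderOf_mk, hz]
  have h1 := card_normalizer13 hY h13 hy
  have hZB : ∀ h : K, h ∈ Subgroup.zpowers y ↔ (h : X) ∈ B := by
    intro h
    rw [hBz]
    constructor
    · rintro ⟨i, rfl⟩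
      show ((y ^ i : K) : X) ∈ Subgroup.zpowers z
      rw [Subgroup.coe_zpow]
      exact Subgroup.zpow_mem_zpowers z i
    · rintro ⟨i, hi⟩
      refine ⟨i, Subtype.ext ?_⟩
      show ((y ^ i : K) : X) = h
      rw [Subgroup.coe_zpow]
      exact hi
  have e : K ⊓ Subgroup.normalizer (B : Set X) =
      (Subgroup.normalizer ((Subgroup.zpowers y : Subgroup K) : Set K)).map K.subtype := by
    ext x
    constructor
    · rintro ⟨hxK, hxN⟩
      refine ⟨⟨x, hxK⟩, ?_, rfl⟩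
      show (⟨x, hxK⟩ : K) ∈ Subgroup.normalizer _
      rw [Subgroup.mem_set_normalizer_iff]
      intro h
      show h ∈ Subgroup.zpowers y ↔ (⟨x, hxK⟩ : K) * h * (⟨x, hxK⟩ : K)⁻¹ ∈ Subgroup.zpowers y
      rw [hZB, hZB]
      exact (Subgroup.mem_set_normalizer_iff.1 hxN) h
    · rintro ⟨w, hw, rfl⟩
      refine ⟨w.2, ?_⟩
      refine Subgroup.mem_set_normalizer_iff.2 ?_
      intro h
      by_cases hh : h ∈ K
      · have := (Subgroup.mem_set_normalizer_iff.1 hw) ⟨h, hh⟩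
        change (⟨h, hh⟩ : K) ∈ Subgroup.zpowers y ↔ w * ⟨h, hh⟩ * w⁻¹ ∈ Subgroup.zpowers y at this
        rw [hZB, hZB] at this
        exact this
      · have h2 : (w : X) * h * (w : X)⁻¹ ∉ K := by
          intro h3
          apply hh
          have e2 : h = (w : X)⁻¹ * ((w : X) * h * (w : X)⁻¹) * w := by group
          rw [e2]
          exact mul_mem (mul_mem (inv_mem w.2) h3) w.2
        exact ⟨fun h3 => absurd (hBK h3) hh, fun h3 => absurd (hBK h3) h2⟩
  rw [e, Nat.card_congr (Subgroup.equivMapOfInjective _ K.subtype K.subtype_injective).symm.toEquiv, h1]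

end Card

end Cfsg.Agent.Lib.Fischer.M24.Th13
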