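/-
The index of the subgroup generated by the local part and the two triples.
-/
import Mathlib
import Cfsg.Agent.Lib.Fischer.M24.Th13.Core2

set_option autoImplicit false

namespace Cfsg.Agent.Lib.Fischer.M24.Th13

open Cfsg.Agent.Lib.Fischer.M22.Rows.Prime

variable {X : Type*} [Group X]

variable {D : Set X} {a d b c : X}

theorem closure_comm {S : Set X} {y : X} (h : ∀ t ∈ S, Commute t y) : ∀ w ∈ Subgroup.closure S, Commute w y := by
  intro w hw
  induction hw using Subgroup.closure_induction with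
  | mem t ht => exact h t ht
  | one => exact Commute.one_left y
  | mul p q _ _ hp hq => exact hp.mul_left hq
  | inv p _ hp => exact hp.inv_left

theorem conj_mul (p q x : X) (h : Commute q x) : (p * q) * x * (p * q)⁻¹ = p * x * p⁻¹ := by
  have e : p * q * x = p * x * q := by rw [mul_assoc, h.eq, mul_assoc]
  rw [e]
  group

/-- Stabilizer of the first triple. -/
def RT (C : Cfg D a d b c) : Subgroup X where
  carrier := {g | ∀ u, Tr a d u ↔ Tr a d (g * u * g⁻¹)}
  one_mem' := by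
    intro u
    simp
  mul_mem' := by
    intro g h hg hh u
    have e : g * h * u * (g * h)⁻¹ = g * (h * u * h⁻¹) * g⁻¹ := by group
    rw [e, hh u]
    exact hg _
  inv_mem' := by
    intro g hg u
    have := hg (g⁻¹ * u * g⁻¹⁻¹)
    have e : g * (g⁻¹ * u * g⁻¹⁻¹) * g⁻¹ = u := by group
    rw [e] at this
    exact this.symm

theorem Cfg.mem_RT_of_comm (C : Cfg D a d b c) {g : X} (h : ∀ u, Tr a d u → Commute g u) : g ∈ RT C := by
  have key : ∀ {g : X}, (∀ u, Tr a d u → Commute g u) → ∀ u, Tr a d u → g * u * g⁻¹ = u := by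
    intro g h u hu
    rw [(h u hu).eq]
    group
  intro u
  constructor
  · intro hu
    rw [key h u hu]
    exact hu
  · intro hu
    have e : g⁻¹ * (g * u * g⁻¹) * g⁻¹⁻¹ = u := by group
    have e2 := key (g := g⁻¹) (fun v hv => (h v hv).inv_left) _ hu
    rw [e] at e2
    rw [e2]
    exact hu

theorem Cfg.a_mem_RT (C : Cfg D a d b c) : a ∈ RT C := by
  obtain ⟨h1, h2, h3, h4⟩ := tri_trans_aux C.aa C.dd C.ad
  have iA := ainv C.aa C.dd C.ad
  have key : ∀ u, Tr a d u → Tr a d (a * u * a⁻¹) := by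
    rintro u (rfl | rfl | rfl)
    · left; rw [iA, C.aa, one_mul]
    · right; right; simp only [iA]
    · right; left; simp only [iA, mul_assoc, h1, C.aa, mul_one]
  intro u
  refine ⟨key u, fun hu => ?_⟩
  have := key _ hu
  have e : a * (a * u * a⁻¹) * a⁻¹ = u := by
    simp only [iA, mul_assoc, h1, C.aa, mul_one]
  rwa [e] at this

theorem Cfg.d_mem_RT (C : Cfg D a d b c) : d ∈ RT C := by
  obtain ⟨h1, h2, h3, h4⟩ := tri_trans_aux C.aa C.dd C.ad
  have iD := dinv C.aa C.dd C.ad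
  have key : ∀ u, Tr a d u → Tr a d (d * u * d⁻¹) := by
    rintro u (rfl | rfl | rfl)
    · right; right; rw [iD]; exact C.ad.symm
    · right; left; rw [iD, C.dd, one_mul]
    · left
      have e := C.ad
      rw [iD]
      calc d * (a * d * a) * d = d * (d * a * d) * d := by rw [e]
        _ = (d * d) * a * (d * d) := by group
        _ = a := by rw [C.dd]; group
  intro u
  refine ⟨key u, fun hu => ?_⟩
  have := key _ hu
  have e : d * (d * u * d⁻¹) * d⁻¹ = u := by
    simp only [iD, mul_assoc, h2, C.dd, mul_one]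
  rwa [e] at this

theorem Cfg.T_le_RT (C : Cfg D a d b c) : TS a d b c ≤ RT C := by
  rw [TS, Subgroup.closure_le]
  rintro y (rfl | rfl | rfl | rfl)
  · exact C.a_mem_RT
  · exact C.mem_RT_of_comm fun u hu => (C.cross hu (Or.inl rfl)).symm
  · exact C.mem_RT_of_comm fun u hu => (C.cross hu (Or.inr (Or.inl rfl))).symm
  · exact C.d_mem_RT

theorem Cfg.K_le_RT (C : Cfg D a d b c) : KS a d b c ≤ RT C := fun _ hk =>
  C.mem_RT_of_comm fun _ hu => KS_comm hk (C.tr1_T hu)

variable [Finite X]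

section Main

variable (C : Cfg D a d b c) (hY : Nat.card (KS a d b c) = 4245696) {x0 : X} (hx0K : x0 ∈ KS a d b c)
  (hx0 : orderOf x0 = 13)
  (hfix : ∀ u ∈ D, Commute x0 u → Tr a d u ∨ Tr b c u) {B : Subgroup X} (hBK : B ≤ KS a d b c) (hB : Nat.card B = 13)

include C hY hx0K hx0 hfix hBK hB

/-- The first triple is sent to the first triple once `a` is. -/
theorem step1 {g : X} (hg : g ∈ Subgroup.normalizer (B : Set X)) (h : Tr a d (g * a * g⁻¹)) :
    Tr a d (g * d * g⁻¹) ∧ Tr b c (g * b * g⁻¹) ∧ Tr b c (g * c * g⁻¹) := by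
  have hP : ∀ u v, Tr a d u → Tr a d v → Commute u v → u = v := fun u v hu hv huv =>
    tri_nc C.aa C.dd C.ad C.nad hu hv huv
  have hPQ : ∀ u v, Tr a d u → Tr b c v → Commute u v := fun u v hu hv => C.cross hu hv
  have n1 := norm_tr C hY hx0K hx0 hfix hBK hB hg (u := d) (Or.inl (Or.inr (Or.inl rfl)))
  have n2 := norm_tr C hY hx0K hx0 hfix hBK hB hg (u := b) (Or.inr (Or.inl rfl))
  have n3 := norm_tr C hY hx0K hx0 hfix hBK hB hg (u := c) (Or.inr (Or.inr (Or.inl rfl)))
  have nc : ¬ Commute (g * a * g⁻¹) (g * d * g⁻¹) := fun e => C.nad ((conj_comm g a d).1 e)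
  have ne : g * a * g⁻¹ ≠ g * d * g⁻¹ := fun e => C.a_ne_d (by simpa using e)
  have s1 := tri_step hP hPQ h n1 n2 nc ((conj_comm g a b).2 C.ab) ((conj_comm g d b).2 C.db) ne
  have s2 := tri_step hP hPQ h n1 n3 nc ((conj_comm g a c).2 C.ac) ((conj_comm g d c).2 C.dc) ne
  exact ⟨s1.1, s1.2, s2.2⟩

/-- The same, starting from the second triple. -/
theorem step2 {g : X} (hg : g ∈ Subgroup.normalizer (B : Set X)) (h : Tr b c (g * a * g⁻¹)) :
    Tr a d (g * b * g⁻¹) := by
  have hP : ∀ u v, Tr b c u → Tr b c v → Commute u v → u = v := fun u v hu hv huv =>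
    tri_nc C.bb C.cc C.bc C.nbc hu hv huv
  have hPQ : ∀ u v, Tr b c u → Tr a d v → Commute u v := fun u v hu hv => (C.cross hv hu).symm
  have n1 := norm_tr C hY hx0K hx0 hfix hBK hB hg (u := d) (Or.inl (Or.inr (Or.inl rfl)))
  have n2 := norm_tr C hY hx0K hx0 hfix hBK hB hg (u := b) (Or.inr (Or.inl rfl))
  have nc : ¬ Commute (g * a * g⁻¹) (g * d * g⁻¹) := fun e => C.nad ((conj_comm g a d).1 e)
  have ne : g * a * g⁻¹ ≠ g * d * g⁻¹ := fun e => C.a_ne_d (by simpa using e)
  exact (tri_step hP hPQ h n1.symm n2.symm nc ((conj_comm g a b).2 C.ab) ((conj_comm g d b).2 C.db) ne).2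

theorem T_le_N : TS a d b c ≤ Subgroup.normalizer (B : Set X) := by
  intro t ht
  refine Subgroup.mem_set_normalizer_iff.2 ?_
  intro x
  by_cases hx : x ∈ B
  · have e : t * x * t⁻¹ = x := by
      rw [(KS_comm (hBK hx) ht).symm.eq]
      group
    rw [e]
  · have h1 : t * x * t⁻¹ ∉ B := by
      intro h2
      apply hx
      have e : t * x * t⁻¹ * t = t * (t * x * t⁻¹) := (KS_comm (hBK h2) ht)
      have e3 : t⁻¹ * (t * x * t⁻¹) * t = t * x * t⁻¹ := by
        rw [mul_assoc t⁻¹, e]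
        group
      have e2 : x = t * x * t⁻¹ := by
        rw [← e3]
        group
      rwa [e2]
    exact ⟨fun h2 => absurd h2 hx, fun h2 => absurd h2 h1⟩

/-- The subgroup in question is precisely the stabilizer of the first triple in the normalizer. -/
theorem mem_Q_iff {g : X} (hg : g ∈ Subgroup.normalizer (B : Set X)) :
    g ∈ ((KS a d b c ⊓ Subgroup.normalizer (B : Set X)) ⊔ TS a d b c) ↔ Tr a d (g * a * g⁻¹) := by
  constructor
  · intro h
    have hle : (KS a d b c ⊓ Subgroup.normalizer (B : Set X)) ⊔ TS a d b c ≤ RT C :=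
      sup_le (inf_le_left.trans C.K_le_RT) C.T_le_RT
    exact (hle h a).1 (Or.inl rfl)
  · intro h
    obtain ⟨s1, s2, s3⟩ := step1 C hY hx0K hx0 hfix hBK hB hg h
    have nec : g * a * g⁻¹ ≠ g * d * g⁻¹ := fun e => C.a_ne_d (by simpa using e)
    have neb : g * b * g⁻¹ ≠ g * c * g⁻¹ := fun e => C.b_ne_c (by simpa using e)
    obtain ⟨w, hw, w1, w2⟩ := tri_trans C.aa C.dd C.ad h s1 nec
    obtain ⟨v, hv, v1, v2⟩ := tri_trans C.bb C.cc C.bc s2 s3 neb
    have hwT : w ∈ TS a d b c := by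
      have : Subgroup.closure ({a, d} : Set X) ≤ TS a d b c := by
        refine Subgroup.closure_mono ?_
        rintro y (rfl | rfl) <;> simp
      exact this hw
    have hvT : v ∈ TS a d b c := by
      have : Subgroup.closure ({b, c} : Set X) ≤ TS a d b c := by
        refine Subgroup.closure_mono ?_
        rintro y (rfl | rfl) <;> simp
      exact this hv
    have wb : Commute w b := closure_comm (by rintro t (rfl | rfl); exacts [C.ab, C.db]) w hw
    have wc : Commute w c := closure_comm (by rintro t (rfl | rfl); exacts [C.ac, C.dc]) w hw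
    have va : Commute v a := closure_comm (by rintro t (rfl | rfl); exacts [C.ab.symm, C.ac.symm]) v hv
    have vd : Commute v d := closure_comm (by rintro t (rfl | rfl); exacts [C.db.symm, C.dc.symm]) v hv
    have wv : Commute w v := by
      refine closure_comm ?_ w hw
      rintro t (rfl | rfl)
      · exact va.symm
      · exact vd.symm
    -- the element `(w v)⁻¹ g` centralizes the four generators
    have cj : ∀ x, g * x * g⁻¹ = w * v * x * (w * v)⁻¹ → Commute ((w * v)⁻¹ * g) x := by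
      intro x hx
      show (w * v)⁻¹ * g * x = x * ((w * v)⁻¹ * g)
      have e : g * x = w * v * x * (w * v)⁻¹ * g := by
        rw [← hx]; group
      rw [mul_assoc, e]
      group
    have ca : Commute ((w * v)⁻¹ * g) a := cj a (by rw [conj_mul w v a va]; exact w1.symm)
    have cd : Commute ((w * v)⁻¹ * g) d := cj d (by rw [conj_mul w v d vd]; exact w2.symm)
    have cb : Commute ((w * v)⁻¹ * g) b := cj b (by rw [wv.eq, conj_mul v w b wb]; exact v1.symm)
    have cc : Commute ((w * v)⁻¹ * g) c := cj c (by rw [wv.eq, conj_mul v w c wc]; exact v2.symm)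
    have hk : (w * v)⁻¹ * g ∈ KS a d b c := mem_KS.2 ⟨ca, cb, cc, cd⟩
    have hTN := T_le_N C hY hx0K hx0 hfix hBK hB
    have hN : (w * v)⁻¹ * g ∈ Subgroup.normalizer (B : Set X) :=
      mul_mem (inv_mem (mul_mem (hTN hwT) (hTN hvT))) hg
    have hgeq : g = (w * v) * ((w * v)⁻¹ * g) := by group
    rw [hgeq]
    exact mul_mem (Subgroup.mem_sup_right (mul_mem hwT hvT)) (Subgroup.mem_sup_left ⟨hk, hN⟩)

/-- The index computation. -/
theorem index_Q {s : X} (hs : s ∈ Subgroup.normalizer (B : Set X)) (hsa : s * a * s⁻¹ = b) :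
    (((KS a d b c ⊓ Subgroup.normalizer (B : Set X)) ⊔ TS a d b c).subgroupOf
      (Subgroup.normalizer (B : Set X))).index = 2 := by
  rw [Subgroup.index_eq_two_iff]
  refine ⟨⟨s, hs⟩, ?_⟩
  rintro ⟨g, hg⟩
  rw [Subgroup.mem_subgroupOf, Subgroup.mem_subgroupOf]
  show Xor (g * s ∈ _) (g ∈ _)
  rw [mem_Q_iff C hY hx0K hx0 hfix hBK hB (mul_mem hg hs), mem_Q_iff C hY hx0K hx0 hfix hBK hB hg]
  have e : g * s * a * (g * s)⁻¹ = g * b * g⁻¹ := by
    rw [← hsa]; group
  rw [e]
  have hdisj : ∀ u, Tr a d u → Tr b c u → False := fun u h1 h2 => C.disj h1 h2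
  by_cases hp : Tr a d (g * a * g⁻¹)
  · right
    refine ⟨hp, fun h1 => ?_⟩
    exact hdisj _ h1 (step1 C hY hx0K hx0 hfix hBK hB hg hp).2.1
  · left
    refine ⟨?_, hp⟩
    have := norm_tr C hY hx0K hx0 hfix hBK hB hg (u := a) (Or.inl (Or.inl rfl))
    exact step2 C hY hx0K hx0 hfix hBK hB hg (this.resolve_left hp)

/-- The swap. -/
theorem exists_swap {s1 : X} (h1 : s1 * a * s1⁻¹ = b) (h2 : s1 * d * s1⁻¹ = c) (h3 : s1 * b * s1⁻¹ = a)
    (h4 : s1 * c * s1⁻¹ = d) :
    ∃ s ∈ Subgroup.normalizer (B : Set X), s * a * s⁻¹ = b := by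
  have hnK : ∀ h ∈ KS a d b c, s1 * h * s1⁻¹ ∈ KS a d b c := by
    intro h hh
    obtain ⟨ca, cb, cc, cd⟩ := mem_KS.1 hh
    refine mem_KS.2 ⟨?_, ?_, ?_, ?_⟩
    · rw [← h3]; exact (conj_comm s1 h b).2 cb
    · rw [← h1]; exact (conj_comm s1 h a).2 ca
    · rw [← h2]; exact (conj_comm s1 h d).2 cd
    · rw [← h4]; exact (conj_comm s1 h c).2 cc
  let B' := B.map (MulAut.conj s1).toMonoidHom
  have hB'K : B' ≤ KS a d b c := by
    rintro _ ⟨x, hx, rfl⟩
    exact hnK x (hBK hx)
  have hB'c : Nat.card B' = 13 := by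
    rw [← hB]
    exact Nat.card_congr (Subgroup.equivMapOfInjective B _ (MulAut.conj s1).injective).symm.toEquiv
  obtain ⟨k, hk, hkx⟩ := conj_inside hY hB'K hBK hB'c hB
  refine ⟨k * s1, ?_, ?_⟩
  · have hle : B.map (MulAut.conj (k * s1)).toMonoidHom ≤ B := by
      rintro _ ⟨x, hx, rfl⟩
      have h5 : s1 * x * s1⁻¹ ∈ B' := ⟨x, hx, rfl⟩
      have h6 := hkx _ h5
      have e : (MulAut.conj (k * s1)).toMonoidHom x = k * (s1 * x * s1⁻¹) * k⁻¹ := by
        simp only [MulEquiv.toMonoidHom_eq_coe, MonoidHom.coe_coe, MulAut.conj_apply]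
        group
      rw [e]
      exact h6
    have heq : B.map (MulAut.conj (k * s1)).toMonoidHom = B := by
      apply Subgroup.eq_of_le_of_card_ge hle
      rw [Nat.card_congr (Subgroup.equivMapOfInjective B _ (MulAut.conj (k * s1)).injective).symm.toEquiv]
    refine Subgroup.mem_set_normalizer_iff.2 ?_
    intro x
    constructor
    · intro hx
      exact hle ⟨x, hx, rfl⟩
    · intro hx
      rw [← heq] at hx
      obtain ⟨y, hy, hyx⟩ := hx
      have e : y = x := (MulAut.conj (k * s1)).injective hyx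
      rwa [← e]
  · have e : k * s1 * a * (k * s1)⁻¹ = k * (s1 * a * s1⁻¹) * k⁻¹ := by group
    rw [e, h1]
    rw [(mem_KS.1 hk).2.1.eq]
    group

/-- The final statement. -/
theorem main_core (h13 : ∀ y : KS a d b c, 13 ∣ orderOf y → orderOf y = 13) {s1 : X} (h1 : s1 * a * s1⁻¹ = b)
    (h2 : s1 * d * s1⁻¹ = c) (h3 : s1 * b * s1⁻¹ = a) (h4 : s1 * c * s1⁻¹ = d) :
    Subgroup.normalizer (B : Set X) ≤ Subgroup.normalizer ((KS a d b c : Subgroup X) : Set X) ∧
    Nat.card ↥(KS a d b c ⊓ Subgroup.normalizer (B : Set X)) = 78 ∧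
    KS a d b c ⊓ Subgroup.centralizer (B : Set X) = B ∧
    (((KS a d b c ⊓ Subgroup.normalizer (B : Set X)) ⊔ TS a d b c).subgroupOf
      (Subgroup.normalizer (B : Set X))).index = 2 := by
  obtain ⟨s, hs, hsa⟩ := exists_swap C hY hx0K hx0 hfix hBK hB h1 h2 h3 h4
  exact ⟨norm_le_norm_K C hY hx0K hx0 hfix hBK hB, card_K_inf_N hY h13 hBK hB, K_inf_C hY h13 hBK hB,
    index_Q C hY hx0K hx0 hfix hBK hB hs hsa⟩

end Main

end Cfsg.Agent.Lib.Fischer.M24.Th13
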