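/-
The configuration of two triples, packaged and transported along an isomorphism.
-/
import Mathlib
import Cfsg.Agent.Lib.Fischer.M24.Th13.Core3

set_option autoImplicit false

namespace Cfsg.Agent.Lib.Fischer.M24.Th13

universe u v

/-- The data for the local structure at a subgroup of order `13`. -/
structure Pack {X : Type u} [Group X] (D : Set X) (A : Type) [Group A] (a d b c x0 s1 : X) : Prop where
  C : Cfg D a d b c
  iso : Nonempty (KS a d b c ≃* A)
  hx0K : x0 ∈ KS a d b c
  hx0 : orderOf x0 = 13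
  hfix : ∀ u ∈ D, Commute x0 u → Tr a d u ∨ Tr b c u
  h1 : s1 * a * s1⁻¹ = b
  h2 : s1 * d * s1⁻¹ = c
  h3 : s1 * b * s1⁻¹ = a
  h4 : s1 * c * s1⁻¹ = d

section Transfer

variable {X : Type u} {X' : Type v} [Group X] [Group X'] (e : X ≃* X')

include e in
theorem comm_map {x y : X} : Commute (e x) (e y) ↔ Commute x y := by
  constructor
  · intro h
    apply e.injective
    have := h.eq
    simpa only [map_mul] using this
  · intro h
    show e x * e y = e y * e x
    rw [← map_mul, ← map_mul, h.eq]

theorem conj_map (g x : X) : e (g * x * g⁻¹) = e g * e x * (e g)⁻¹ := by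
  simp only [map_mul, map_inv]

theorem mem_KS_map {a d b c x : X} : e x ∈ KS (e a) (e d) (e b) (e c) ↔ x ∈ KS a d b c := by
  rw [mem_KS, mem_KS, comm_map e, comm_map e, comm_map e, comm_map e]

theorem tr_map {a d u : X} : Tr (e a) (e d) (e u) ↔ Tr a d u := by
  unfold Tr
  rw [← map_mul, ← map_mul, e.injective.eq_iff, e.injective.eq_iff, e.injective.eq_iff]

theorem KS_map (a d b c : X) :
    (KS a d b c).map e.toMonoidHom = KS (e a) (e d) (e b) (e c) := by
  ext y
  constructor
  · rintro ⟨x, hx, rfl⟩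
    exact (mem_KS_map e).2 hx
  · intro hy
    refine ⟨e.symm y, (mem_KS_map e).1 ?_, by simp⟩
    rw [MulEquiv.apply_symm_apply]
    exact hy

theorem Cfg.transfer {D : Set X} {D' : Set X'} (he : ∀ x, x ∈ D ↔ e x ∈ D') {a d b c : X}
    (C : Cfg D' (e a) (e d) (e b) (e c)) : Cfg D a d b c where
  conj := by
    intro g u hu
    rw [he, conj_map]
    exact C.conj _ _ ((he u).1 hu)
  sq := by
    intro u hu
    apply e.injective
    rw [map_mul, C.sq _ ((he u).1 hu), map_one]
  br := by
    intro u hu v hv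
    rcases C.br _ ((he u).1 hu) _ ((he v).1 hv) with h | h
    · exact Or.inl ((comm_map e).1 h)
    · right
      apply e.injective
      simpa only [map_mul] using h
  ha := (he a).2 C.ha
  hd := (he d).2 C.hd
  hb := (he b).2 C.hb
  hc := (he c).2 C.hc
  nad := fun h => C.nad ((comm_map e).2 h)
  nbc := fun h => C.nbc ((comm_map e).2 h)
  ab := (comm_map e).1 C.ab
  ac := (comm_map e).1 C.ac
  db := (comm_map e).1 C.db
  dc := (comm_map e).1 C.dc

theorem Pack.transfer {D : Set X} {D' : Set X'} (he : ∀ x, x ∈ D ↔ e x ∈ D') {A : Type} [Group A]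
    {a d b c x0 s1 : X} (P : Pack D' A (e a) (e d) (e b) (e c) (e x0) (e s1)) : Pack D A a d b c x0 s1 where
  C := Cfg.transfer e he P.C
  iso := by
    obtain ⟨f⟩ := P.iso
    exact ⟨((e.subgroupMap (KS a d b c)).trans (MulEquiv.subgroupCongr (KS_map e a d b c))).trans f⟩
  hx0K := (mem_KS_map e).1 P.hx0K
  hx0 := by
    rw [← MulEquiv.orderOf_eq e]
    exact P.hx0
  hfix := by
    intro u hu hc
    rcases P.hfix _ ((he u).1 hu) ((comm_map e).2 hc) with h | h
    · exact Or.inl ((tr_map e).1 h)
    · exact Or.inr ((tr_map e).1 h)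
  h1 := by
    apply e.injective
    rw [conj_map]
    exact P.h1
  h2 := by
    apply e.injective
    rw [conj_map]
    exact P.h2
  h3 := by
    apply e.injective
    rw [conj_map]
    exact P.h3
  h4 := by
    apply e.injective
    rw [conj_map]
    exact P.h4

end Transfer

/-- The main consequence of the data. -/
theorem Pack.main {X : Type u} [Group X] [Finite X] {D : Set X} {A : Type} [Group A] {a d b c x0 s1 : X}
    (P : Pack D A a d b c x0 s1) (hA : Nat.card A = 4245696) (hA13 : ∀ y : A, 13 ∣ orderOf y → orderOf y = 13)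
    {B : Subgroup X} (hBK : B ≤ KS a d b c) (hB : Nat.card B = 13) :
    Subgroup.normalizer (B : Set X) ≤ Subgroup.normalizer ((KS a d b c : Subgroup X) : Set X) ∧
    Nat.card ↥(KS a d b c ⊓ Subgroup.normalizer (B : Set X)) = 78 ∧
    KS a d b c ⊓ Subgroup.centralizer (B : Set X) = B ∧
    (((KS a d b c ⊓ Subgroup.normalizer (B : Set X)) ⊔ TS a d b c).subgroupOf
      (Subgroup.normalizer (B : Set X))).index = 2 := by
  obtain ⟨f⟩ := P.iso
  have hY : Nat.card (KS a d b c) = 4245696 := (Nat.card_congr f.toEquiv).trans hA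
  have h13 : ∀ y : KS a d b c, 13 ∣ orderOf y → orderOf y = 13 := by
    intro y hy
    have := hA13 (f y) (by rw [MulEquiv.orderOf_eq]; exact hy)
    rwa [MulEquiv.orderOf_eq] at this
  exact main_core P.C hY P.hx0K P.hx0 P.hfix hBK hB h13 P.h1 P.h2 P.h3 P.h4

end Cfsg.Agent.Lib.Fischer.M24.Th13
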