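/-
The words used for the centralizer of the two triples in the explicit `Fi24`.
-/
import Mathlib

set_option autoImplicit false

namespace Cfsg.Agent.Lib.Fischer.M24.Th13

/-- The first generator. -/
def w_ua : List ℕ := [0, 9, 8, 3, 0, 3, 1, 2, 0, 4, 9, 8, 3, 8, 3, 2, 0, 1, 0, 4, 3, 0, 2, 4, 3, 1, 8, 3, 2, 4, 9, 8, 3, 8, 3, 2]

/-- The second generator. -/
def w_ub : List ℕ := [0, 8, 9, 4, 2, 3, 1, 8, 9, 4, 2, 3, 1, 0]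

/-- The third generator. -/
def w_uc : List ℕ := [4, 3, 11, 10, 5, 6, 4, 5, 3, 4, 2, 3, 8, 7, 6, 5, 4, 3, 2, 1, 0, 11, 10, 11, 0, 1, 2, 3, 4, 5, 6, 7, 8, 3, 2, 4, 3, 5, 4, 6, 5, 10, 11, 8, 9, 11, 10, 5, 6, 4, 5, 3, 4, 2, 3, 8, 7, 6, 5, 4, 3, 2, 1, 0, 11, 10, 11, 0, 1, 2, 3, 4, 5, 6, 7, 8, 3, 2, 4, 3, 5, 4, 6, 5, 10, 11, 0, 2, 3, 9, 0, 10, 1, 8, 9, 4, 2, 3, 1, 0, 3, 9, 0, 10, 3, 2, 4, 9, 8, 1, 10, 0, 9, 3, 2, 0, 11, 10, 5, 6, 4, 5, 3, 4, 2, 3, 8, 7, 6, 5, 4, 3, 2, 1, 0, 11, 10, 11, 0, 1, 2, 3, 4, 5, 6, 7, 8, 3, 2, 4, 3, 5, 4, 6, 5, 10, 11, 9, 8, 11, 10, 5, 6, 4, 5, 3, 4, 2, 3, 8, 7, 6, 5, 4, 3, 2, 1, 0, 11, 10, 11, 0, 1, 2, 3, 4, 5, 6, 7, 8, 3, 2, 4, 3, 5, 4, 6, 5, 10, 11, 3, 4]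

/-- An element of order `13`. -/
def w_x0 : List ℕ := [3, 10, 4, 10, 1, 11, 10, 5, 6, 4, 5, 3, 4, 2, 3, 8, 7, 6, 5, 4, 3, 2, 1, 0, 11, 10, 11, 0, 1, 2, 3, 4, 5, 6, 7, 8, 3, 2, 4, 3, 5, 4, 6, 5, 10, 11, 8, 10, 3, 9, 0, 8, 11, 10, 5, 6, 4, 5, 3, 4, 2, 3, 8, 7, 6, 5, 4, 3, 2, 1, 0, 11, 10, 11, 0, 1, 2, 3, 4, 5, 6, 7, 8, 3, 2, 4, 3, 5, 4, 6, 5, 10, 11, 0]

/-- An element swapping the two triples. -/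
def w_s1 : List ℕ := [0, 1, 2, 3, 11, 10, 0, 11, 5, 4, 3, 2, 1, 0, 11, 10, 6, 5, 4, 3, 2, 1, 0, 11, 8, 9, 3, 4, 2, 3, 8, 3, 4, 5, 2, 3, 4, 1, 2, 3, 8, 9, 4, 0, 1, 2, 3, 8, 7, 1, 2, 3, 4, 5, 6, 0, 1, 2, 3, 4, 5, 1, 0]

/-- An element moving the fourth transposition. -/
def w_w85 : List ℕ := [11, 10, 5, 6, 4, 5, 3, 4, 2, 3, 8, 7, 6, 5, 4, 3, 2, 1, 0, 11, 10, 11, 0, 1, 2, 3, 4, 5, 6, 7, 8, 3, 2, 4, 3, 5, 4, 6, 5, 10, 11]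

/-- A word taking the base label to the label of the letter `6`. -/
def w_v6 : List ℕ := [5, 4, 3, 2, 1, 0, 11, 10, 6, 5, 4, 3, 2, 1, 0, 11]

/-- A word taking the base label to the label of the letter `7`. -/
def w_v7 : List ℕ := [6, 5, 4, 3, 2, 1, 0, 11, 10, 7, 6, 5, 4, 3, 2, 1, 0, 11]

/-- The words of the generators. -/
def uY (j : ℕ) : List ℕ :=
  Nat.rec (motive := fun _ => List ℕ) w_ua (fun j _ => Nat.rec (motive := fun _ => List ℕ) w_ub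
    (fun j _ => Nat.rec (motive := fun _ => List ℕ) w_uc (fun _ _ => []) j) j) j

end Cfsg.Agent.Lib.Fischer.M24.Th13
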