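/-
Evaluation of the words of the explicit `Fi24` on points, and the check of identities on the twelve points of
the letters.
-/
import Mathlib
import Cfsg.Agent.Lib.Fischer.M24.E.Base
import Cfsg.Agent.Lib.Fischer.M24.Th13.Data

set_option autoImplicit false

namespace Cfsg.Agent.Lib.Fischer.M24.Th13

open Cfsg.Agent.Lib.Compute.BitNet Cfsg.Agent.Lib.Fischer.M24.Net Cfsg.Agent.Lib.Fischer.M24.Explicit
open Cfsg.Agent.Lib.Compute.ToddCoxeterCore

/-- Evaluate a word on a point, the first letter first. -/
noncomputable def posF (u : List ℕ) : ℕ → ℕ :=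
  List.rec (motive := fun _ => ℕ → ℕ) (fun i => i) (fun x _ ih i => frc (posN (NL x) i) ih) u

theorem posF_cons (x : ℕ) (u : List ℕ) (i : ℕ) : posF (x :: u) i = posF u (posN (NL x) i) := by
  show frc (posN (NL x) i) (posF u) = _
  rw [frc_eq]

theorem posW_append_single (l : List ℕ) (x i : ℕ) : posW NL (l ++ [x]) i = posW NL l (posN (NL x) i) := by
  induction l with
  | nil => rfl
  | cons y l ih =>
    show posN (NL y) (posW NL (l ++ [x]) i) = posN (NL y) (posW NL l (posN (NL x) i))
    rw [ih]

theorem posF_eq (u : List ℕ) (i : ℕ) : posF u i = posW NL u.reverse i := by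
  induction u generalizing i with
  | nil => rfl
  | cons x u ih => rw [posF_cons, ih, List.reverse_cons, posW_append_single]

theorem posW_eq_posF (u : List ℕ) (i : ℕ) : posW NL u i = posF u.reverse i := by
  rw [posF_eq, List.reverse_reverse]

theorem φ_Lw {u : List ℕ} {p q : ℕ} (hp : p < 306936) (hq : q < 306936) (h : posF u.reverse p = q) :
    φ (Lw u) ⟨p, hp⟩ = ⟨q, hq⟩ := by
  apply Fin.ext
  rw [φ_coe, Lw_val]
  rw [← posW_eq_posF] at h
  exact (FF.elW_val u _).trans h

/-- An identity checked on the twelve points of the letters. -/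
theorem Lw_eq_one {u : List ℕ} (h : ∀ p ∈ lbL, posF u.reverse p = p) : Lw u = 1 := by
  apply eq_one_of_comm_letters
  intro x hx
  rw [← t_lbf hx, comm_t_iff']
  exact φ_Lw (lbl_lt x) (lbl_lt x) (h _ (lbl_mem (range_gL hx)))

theorem El_eq_one {u : List ℕ} (h : ∀ p ∈ lbL, posF u.reverse p = p) : El u = 1 :=
  congrArg Subtype.val (Lw_eq_one h)

theorem El_eq_fix {u v : List ℕ} (h : ∀ p ∈ lbL, posF (u ++ v.reverse).reverse p = p) : El u = El v := by
  have h1 := El_eq_one h
  rw [El_append, El_reverse] at h1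
  exact mul_inv_eq_one.1 h1

end Cfsg.Agent.Lib.Fischer.M24.Th13
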