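/-
The two triples in the explicit `Fi24`: the transpositions, the elements and the local data.
-/
import Mathlib
import Cfsg.Agent.Lib.Fischer.M24.Th13.DataX
import Cfsg.Agent.Lib.Fischer.M24.Th13.Exp
import Cfsg.Agent.Lib.Fischer.M24.Th13.Core4

set_option autoImplicit false
set_option Elab.async false

namespace Cfsg.Agent.Lib.Fischer.M24.Th13

open Cfsg.Agent.Lib.Compute.BitNet Cfsg.Agent.Lib.Fischer.M24.Net Cfsg.Agent.Lib.Fischer.M24.Explicit

/-- A label. -/
abbrev lb (n : ℕ) (h : n < 306936 := by norm_num) : Fin NN := ⟨n, h⟩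

theorem φ_L {x p q : ℕ} (hp : p < 306936) (hq : q < 306936) (h : posN (NL x) p = q) :
    φ (L x) ⟨p, hp⟩ = ⟨q, hq⟩ := by
  apply Fin.ext
  rw [φ_coe, L_val]
  exact h

theorem t_word {v : List ℕ} {x p : ℕ} (hp : p < 306936) (h1 : posF v.reverse 31671 = p)
    (h2 : ∀ q ∈ lbL, posF ([x] ++ (v ++ [10] ++ v.reverse).reverse).reverse q = q) : L x = t ⟨p, hp⟩ := by
  have h := t_eq (Lw v)
  rw [show φ (Lw v) q0 = ⟨p, hp⟩ from φ_Lw (by norm_num) hp h1] at h
  rw [h]
  apply Subtype.ext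
  show τ x = El v * τ 10 * (El v)⁻¹
  rw [← El_reverse, ← El_single 10, ← El_append, ← El_append, ← El_single x]
  exact El_eq_fix h2

theorem L6_t : L 6 = t (lb 8005) := t_word _ (v := w_v6) (by decide +kernel) (by decide +kernel)

theorem L7_t : L 7 = t (lb 8006) := t_word _ (v := w_v7) (by decide +kernel) (by decide +kernel)

/-- The fourth transposition. -/
noncomputable def dG : G2 := t (lb 306501)

theorem z2_t : z2 = t q0 := t_q0.symm

theorem comm_z2' (g : G2) : Commute g z2 ↔ φ g q0 = q0 := by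
  rw [z2_t]
  exact comm_t_iff' g q0

theorem comm_L6 (g : G2) : Commute g (L 6) ↔ φ g (lb 8005) = lb 8005 := by
  rw [L6_t]
  exact comm_t_iff' g _

theorem comm_L7 (g : G2) : Commute g (L 7) ↔ φ g (lb 8006) = lb 8006 := by
  rw [L7_t]
  exact comm_t_iff' g _

theorem comm_dG (g : G2) : Commute g dG ↔ φ g (lb 306501) = lb 306501 := comm_t_iff' g _

theorem cfgG : Cfg D2 z2 dG (L 6) (L 7) where
  conj := D2_conj
  sq := tt2.sq
  br := tt2.br
  ha := z2_mem
  hd := t_mem _
  hb := L6_mem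
  hc := L7_mem
  nad := by
    intro h
    have := (comm_z2_t_iff (lb 306501)).1 h
    simp at this
  nbc := by
    intro h
    have h2 := (comm_L7 (L 6)).1 h
    rw [φ_L (x := 6) (p := 8006) (q := 6531) (by norm_num) (by norm_num) (by decide +kernel)] at h2
    exact absurd (congrArg Fin.val h2) (by norm_num)
  ab := ((comm_z2' _).2 (φ_L (x := 6) (p := 31671) (q := 31671) (by norm_num) (by norm_num) (by decide +kernel))).symm
  ac := ((comm_z2' _).2 (φ_L (x := 7) (p := 31671) (q := 31671) (by norm_num) (by norm_num) (by decide +kernel))).symm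
  db := ((comm_dG _).2 (φ_L (x := 6) (p := 306501) (q := 306501) (by norm_num) (by norm_num) (by decide +kernel))).symm
  dc := ((comm_dG _).2 (φ_L (x := 7) (p := 306501) (q := 306501) (by norm_num) (by norm_num) (by decide +kernel))).symm

theorem mem_K_iff {g : G2} : g ∈ KS z2 dG (L 6) (L 7) ↔
    φ g q0 = q0 ∧ φ g (lb 8005) = lb 8005 ∧ φ g (lb 8006) = lb 8006 ∧ φ g (lb 306501) = lb 306501 := by
  rw [mem_KS, comm_z2', comm_L6, comm_L7, comm_dG]

/-- The labels fixed by the centralizer. -/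
def fixL : List ℕ := [31671, 8005, 8006, 306501]

theorem Lw_mem_K {u : List ℕ} (h : ∀ p ∈ fixL, posF u.reverse p = p) : Lw u ∈ KS z2 dG (L 6) (L 7) :=
  mem_K_iff.2 ⟨φ_Lw (by norm_num) (by norm_num) (h 31671 (by simp [fixL])),
    φ_Lw (by norm_num) (by norm_num) (h 8005 (by simp [fixL])),
    φ_Lw (by norm_num) (by norm_num) (h 8006 (by simp [fixL])),
    φ_Lw (by norm_num) (by norm_num) (h 306501 (by simp [fixL]))⟩

theorem x0_mem_K : Lw w_x0 ∈ KS z2 dG (L 6) (L 7) := Lw_mem_K (by decide +kernel)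

theorem uY_fix : ∀ j ∈ [0, 1, 2], ∀ p ∈ fixL, posF (uY j).reverse p = p := by decide +kernel

theorem uY_mem_K (j : ℕ) : Lw (uY j) ∈ KS z2 dG (L 6) (L 7) := by
  by_cases h : j < 3
  · refine Lw_mem_K (uY_fix j ?_)
    simp only [List.mem_cons, List.not_mem_nil, or_false]
    omega
  · obtain ⟨i, rfl⟩ : ∃ i, j = i + 3 := ⟨j - 3, by omega⟩
    have e : Lw (uY (i + 3)) = 1 := rfl
    rw [e]
    exact one_mem _

/-- Repetitions of a word. -/
def rpt (u : List ℕ) : ℕ → List ℕ
  | 0 => []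
  | n + 1 => rpt u n ++ u

theorem El_rpt (u : List ℕ) (n : ℕ) : El (rpt u n) = El u ^ n := by
  induction n with
  | zero => rfl
  | succ n ih => rw [pow_succ, ← ih, rpt, El_append]

theorem x0_ne : Lw w_x0 ≠ 1 := by
  intro h
  have h1 := φ_Lw (u := w_x0) (p := 0) (q := 7524) (by norm_num) (by norm_num) (by decide +kernel)
  rw [h, map_one] at h1
  exact absurd (congrArg Fin.val h1) (by norm_num)

/-- The difference of a word with the identity on a bit plane. -/
noncomputable def diffP (u : List ℕ) (b : ℕ) : ℕ := Nat.xor (wordA NL u (idT 306938 19 b)) (idT 306938 19 b)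

/-- The points moved by a word. -/
noncomputable def diffS (u : List ℕ) (bs : List ℕ) : ℕ :=
  List.rec (motive := fun _ => ℕ) 0 (fun b _ ih => Nat.lor (diffP u b) ih) bs

theorem diffS_false {u : List ℕ} {i : ℕ} (h : posW NL u i = i) (bs : List ℕ) : (diffS u bs).testBit i = false := by
  induction bs with
  | nil => exact Nat.zero_testBit i
  | cons b bs ih =>
    show (Nat.lor (diffP u b) (diffS u bs)).testBit i = false
    have e : Nat.lor (diffP u b) (diffS u bs) = diffP u b ||| diffS u bs := rfl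
    rw [e, Nat.testBit_or, ih, Bool.or_false]
    have e2 : diffP u b = (wordA NL u (idT 306938 19 b)) ^^^ (idT 306938 19 b) := rfl
    rw [e2, Nat.testBit_xor, testBit_wordA (N := NL) FF.hv u, h, Bool.xor_self]

/-- The points fixed by the element of order `13`. -/
def fixX : List ℕ := [6531, 8005, 8006, 31671, 306500, 306501, 306936, 306937]

theorem x0_d0 : diffS w_x0 [0, 1, 2, 3, 4] = dx0 := by decide +kernel

theorem x0_d1 : diffS w_x0 [5, 6, 7, 8, 9] = dx1 := by decide +kernel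

theorem x0_d2 : diffS w_x0 [10, 11, 12, 13, 14] = dx2 := by decide +kernel

theorem x0_d3 : diffS w_x0 [15, 16, 17, 18] = dx3 := by decide +kernel

theorem x0_fix_chk : Nat.lor dx0 (Nat.lor dx1 (Nat.lor dx2 (Nat.lor dx3 (maskL fixX)))) = fullS 306938 := by
  decide +kernel

theorem x0_fix {p : ℕ} (hp : p < 306936) (h : φ (Lw w_x0) ⟨p, hp⟩ = ⟨p, hp⟩) : p ∈ fixX := by
  have h1 : posW NL w_x0 p = p := by
    have h3 := congrArg Fin.val h
    rw [φ_coe, Lw_val] at h3
    exact (FF.elW_val _ _).symm.trans h3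
  have h2 : Nat.testBit (Nat.lor dx0 (Nat.lor dx1 (Nat.lor dx2 (Nat.lor dx3 (maskL fixX))))) p = Nat.testBit (fullS 306938) p :=
    congrArg (fun n => Nat.testBit n p) x0_fix_chk
  have e : Nat.lor dx0 (Nat.lor dx1 (Nat.lor dx2 (Nat.lor dx3 (maskL fixX)))) =
    dx0 ||| (dx1 ||| (dx2 ||| (dx3 ||| maskL fixX))) := rfl
  rw [e, Nat.testBit_or, Nat.testBit_or, Nat.testBit_or, Nat.testBit_or, ← x0_d0, ← x0_d1, ← x0_d2, ← x0_d3,
    diffS_false h1, diffS_false h1, diffS_false h1, diffS_false h1, Bool.false_or, Bool.false_or, Bool.false_or,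
    Bool.false_or, testBit_fullS] at h2
  rw [← testBit_maskL, h2]
  simp only [decide_eq_true_eq]
  omega

theorem t6531 : t (lb 6531) = L 6 * L 7 * L 6 := by
  have h := t_conj (L 6) (lb 8006)
  rw [φ_L (x := 6) (p := 8006) (q := 6531) (by norm_num) (by norm_num) (by decide +kernel), L_inv, ← L7_t] at h
  exact h.symm

theorem t306500 : t (lb 306500) = z2 * dG * z2 := by
  have h := t_conj (L 10) (lb 306501)
  rw [φ_L (x := 10) (p := 306501) (q := 306500) (by norm_num) (by norm_num) (by decide +kernel), L_inv] at h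
  exact h.symm

theorem hfixG : ∀ u ∈ D2, Commute (Lw w_x0) u → Tr z2 dG u ∨ Tr (L 6) (L 7) u := by
  intro u hu hc
  obtain ⟨⟨p, hp⟩, rfl⟩ := mem_D2.1 hu
  have h1 := x0_fix hp ((comm_t_iff' _ _).1 hc)
  simp only [fixX, List.mem_cons, List.not_mem_nil, or_false] at h1
  rcases h1 with rfl | rfl | rfl | rfl | rfl | rfl | rfl | rfl
  · exact Or.inr (Or.inr (Or.inr t6531))
  · exact Or.inr (Or.inl L6_t.symm)
  · exact Or.inr (Or.inr (Or.inl L7_t.symm))
  · exact Or.inl (Or.inl t_q0)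
  · exact Or.inl (Or.inr (Or.inr t306500))
  · exact Or.inl (Or.inr (Or.inl rfl))
  · exact absurd hp (by norm_num)
  · exact absurd hp (by norm_num)

theorem s1_conj (p q : ℕ) (hp : p < 306936) (hq : q < 306936) (h : posF w_s1.reverse p = q) :
    Lw w_s1 * t ⟨p, hp⟩ * (Lw w_s1)⁻¹ = t ⟨q, hq⟩ := by
  rw [t_conj, φ_Lw hp hq h]

theorem s1_1 : Lw w_s1 * z2 * (Lw w_s1)⁻¹ = L 6 := by
  rw [z2_t, L6_t]
  exact s1_conj 31671 8005 (by norm_num) (by norm_num) (by decide +kernel)

theorem s1_2 : Lw w_s1 * dG * (Lw w_s1)⁻¹ = L 7 := by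
  rw [L7_t]
  exact s1_conj 306501 8006 (by norm_num) (by norm_num) (by decide +kernel)

theorem s1_3 : Lw w_s1 * L 6 * (Lw w_s1)⁻¹ = z2 := by
  rw [z2_t, L6_t]
  exact s1_conj 8005 31671 (by norm_num) (by norm_num) (by decide +kernel)

theorem s1_4 : Lw w_s1 * L 7 * (Lw w_s1)⁻¹ = dG := by
  rw [L7_t]
  exact s1_conj 8006 306501 (by norm_num) (by norm_num) (by decide +kernel)

theorem packG {A : Type} [Group A] (iso : Nonempty (KS z2 dG (L 6) (L 7) ≃* A)) (hx0 : orderOf (Lw w_x0) = 13) :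
    Pack D2 A z2 dG (L 6) (L 7) (Lw w_x0) (Lw w_s1) where
  C := cfgG
  iso := iso
  hx0K := x0_mem_K
  hx0 := hx0
  hfix := hfixG
  h1 := s1_1
  h2 := s1_2
  h3 := s1_3
  h4 := s1_4

end Cfsg.Agent.Lib.Fischer.M24.Th13
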