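/-
The order of the centralizer of the two triples in the explicit `Fi24` is bounded above.
-/
import Mathlib
import Cfsg.Agent.Lib.Fischer.M23.A3
import Cfsg.Agent.Lib.Fischer.M24.Th13.Gen

set_option autoImplicit false
set_option Elab.async false

namespace Cfsg.Agent.Lib.Fischer.M24.Th13

open Cfsg.Agent.Lib.Compute.BitNet Cfsg.Agent.Lib.Fischer.M24.Net Cfsg.Agent.Lib.Fischer.M24.Explicit
open Cfsg.Agent.Lib.Fischer.Local

/-- The centralizer of one transposition and of a triple. -/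
noncomputable def Q1 : Subgroup G2 := Subgroup.centralizer ({z2, L 6, L 7} : Set G2)

theorem mem_Q1 {g : G2} : g ∈ Q1 ↔ Commute g z2 ∧ Commute g (L 6) ∧ Commute g (L 7) := by
  unfold Q1
  rw [Subgroup.mem_centralizer_iff]
  constructor
  · intro h
    exact ⟨(h z2 (by simp)).symm, (h (L 6) (by simp)).symm, (h (L 7) (by simp)).symm⟩
  · rintro ⟨h1, h2, h3⟩ y (rfl | rfl | rfl)
    · exact h1.symm
    · exact h2.symm
    · exact h3.symm

theorem Q1_H2 {g : G2} (h : g ∈ Q1) : g ∈ H2 := (comm_z2_iff g).1 (mem_Q1.1 h).1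

theorem π2_one : π2 (1 : G2) = 1 := by
  rw [π2_of_mem (one_mem _)]
  exact map_one ψ

theorem card_Q1_le : Nat.card Q1 ≤ 2 * 4585351680 := by
  have hL6 : L 6 ∈ Dlt D2 z2 := L_mem_Dlt (by norm_num)
  have hL7 : L 7 ∈ Dlt D2 z2 := L_mem_Dlt (by norm_num)
  have hu := π2_mem_D1 hL6
  have hv := π2_mem_D1 hL7
  have huv : ¬ Commute (π2 (L 6)) (π2 (L 7)) := fun h => cfgG.nbc ((π2_comm hL6 hL7).2 h)
  obtain ⟨k, hk1, hk2⟩ := Cfsg.Agent.Lib.Fischer.M24.Hyp.pair_trans hu hv huv
  let C1 := Subgroup.centralizer ({M23.Explicit.z1, M23.A3.d1} : Set M23.Explicit.G1)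
  have hF : ∀ h : Q1, k * π2 (h : G2) * k⁻¹ ∈ C1 := by
    intro h
    have hH := Q1_H2 h.2
    obtain ⟨-, c6, c7⟩ := mem_Q1.1 h.2
    have c6' : Commute (π2 (h : G2)) (π2 (L 6)) := by
      show π2 (h : G2) * π2 (L 6) = π2 (L 6) * π2 (h : G2)
      rw [← π2_mul hH (mem_H2_of_Dlt hL6), ← π2_mul (mem_H2_of_Dlt hL6) hH, c6.eq]
    have c7' : Commute (π2 (h : G2)) (π2 (L 7)) := by
      show π2 (h : G2) * π2 (L 7) = π2 (L 7) * π2 (h : G2)
      rw [← π2_mul hH (mem_H2_of_Dlt hL7), ← π2_mul (mem_H2_of_Dlt hL7) hH, c7.eq]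
    refine M23.A3.mem_C.2 ⟨?_, ?_⟩
    · have e : M23.Explicit.z1 = k * π2 (L 6) * k⁻¹ := hk1.symm
      rw [e]
      exact (conj_comm k _ _).2 c6'
    · have e : M23.A3.d1 = k * π2 (L 7) * k⁻¹ := hk2.symm
      rw [e]
      exact (conj_comm k _ _).2 c7'
  let F : Q1 →* C1 :=
    { toFun := fun h => ⟨k * π2 (h : G2) * k⁻¹, hF h⟩
      map_one' := by
        apply Subtype.ext
        show k * π2 (1 : G2) * k⁻¹ = 1
        rw [π2_one]
        group
      map_mul' := by
        intro x y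
        apply Subtype.ext
        show k * π2 ((x : G2) * y) * k⁻¹ = (k * π2 (x : G2) * k⁻¹) * (k * π2 (y : G2) * k⁻¹)
        rw [π2_mul (Q1_H2 x.2) (Q1_H2 y.2)]
        group }
  have hker : ∀ x : F.ker, ((x : Q1) : G2) = 1 ∨ ((x : Q1) : G2) = z2 := by
    rintro ⟨x, hx⟩
    have h1 : F x = 1 := hx
    have h2 : k * π2 (x : G2) * k⁻¹ = 1 := congrArg Subtype.val h1
    have h3 : π2 (x : G2) = π2 (1 : G2) := by
      rw [π2_one]
      have : π2 (x : G2) = k⁻¹ * (k * π2 (x : G2) * k⁻¹) * k := by group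
      rw [this, h2]
      group
    rcases (π2_eq_iff (Q1_H2 x.2) (one_mem _)).1 h3 with h | h
    · exact Or.inl h
    · right
      rw [h, one_mul]
  have hcardker : Nat.card F.ker ≤ 2 := by
    classical
    have hinj : Function.Injective (fun x : F.ker => decide (((x : Q1) : G2) = 1)) := by
      intro x y hxy
      have h1 : ((x : Q1) : G2) = 1 ↔ ((y : Q1) : G2) = 1 := by simpa using hxy
      apply Subtype.ext
      apply Subtype.ext
      rcases hker x with h | h
      · rw [h, h1.1 h]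
      · rcases hker y with h' | h'
        · exact absurd (h1.2 h') (by rw [h]; exact z2_ne_one)
        · rw [h, h']
    have := Nat.card_le_card_of_injective _ hinj
    simpa using this
  have h1 : Nat.card Q1 = Nat.card F.ker * Nat.card F.range := by
    rw [← Subgroup.index_ker, Subgroup.card_mul_index]
  have h2 : Nat.card F.range ≤ Nat.card C1 := Subgroup.card_le_card_group _
  have h3 : Nat.card C1 ≤ 4585351680 := M23.A3.card_C_le
  rw [h1]
  exact Nat.mul_le_mul hcardker (h2.trans h3)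

/-! ### The orbit -/

/-- The letters centralizing `l` and the first two letters of the second triple. -/
def lY : List ℕ := [0, 1, 2, 3, 4, 8, 9, 10]

theorem lY_fix : ∀ x ∈ lY, ∀ p ∈ [31671, 8005, 8006], posN (NL x) p = p := by decide +kernel

theorem w85_fix : ∀ p ∈ [31671, 8005, 8006], posF w_w85.reverse p = p := by decide +kernel

theorem mem_Q1_of_fix {g : G2} (h1 : φ g q0 = q0) (h2 : φ g (lb 8005) = lb 8005) (h3 : φ g (lb 8006) = lb 8006) :
    g ∈ Q1 := mem_Q1.2 ⟨(comm_z2' g).2 h1, (comm_L6 g).2 h2, (comm_L7 g).2 h3⟩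

theorem L_mem_Q1 {x : ℕ} (hx : x ∈ lY) : L x ∈ Q1 :=
  mem_Q1_of_fix (φ_L (by norm_num) (by norm_num) (lY_fix x hx 31671 (by simp)))
    (φ_L (by norm_num) (by norm_num) (lY_fix x hx 8005 (by simp)))
    (φ_L (by norm_num) (by norm_num) (lY_fix x hx 8006 (by simp)))

theorem w85_mem_Q1 : Lw w_w85 ∈ Q1 :=
  mem_Q1_of_fix (φ_Lw (by norm_num) (by norm_num) (w85_fix 31671 (by simp)))
    (φ_Lw (by norm_num) (by norm_num) (w85_fix 8005 (by simp)))
    (φ_Lw (by norm_num) (by norm_num) (w85_fix 8006 (by simp)))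

/-- The image of `Q1` among the permutations. -/
noncomputable def Q1p : Subgroup Pm := Q1.map Gm.subtype

theorem card_Q1p : Nat.card Q1p = Nat.card Q1 :=
  Nat.card_congr (Subgroup.equivMapOfInjective Q1 Gm.subtype Gm.subtype_injective).symm.toEquiv

theorem τ_mem_Q1p {x : ℕ} (hx : x ∈ lY) : τ x ∈ Q1p := ⟨L x, L_mem_Q1 hx, rfl⟩

theorem pc_add : ∀ (a b v : ℕ), pc (a + b) v = pc a v + pc b (Nat.shiftRight v a) := by
  intro a
  induction a with
  | zero => intro b v; simp [pc]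
  | succ a ih =>
    intro b v
    have e1 : a + 1 + b = (a + b) + 1 := by omega
    rw [e1]
    show Nat.add (Nat.land v 1) (pc (a + b) (Nat.shiftRight v 1)) = Nat.add (Nat.land v 1) (pc a (Nat.shiftRight v 1)) + pc b (Nat.shiftRight v (a + 1))
    rw [ih]
    have e2 : Nat.shiftRight v (a + 1) = Nat.shiftRight (Nat.shiftRight v 1) a := by
      show v >>> (a + 1) = (v >>> 1) >>> a
      rw [Nat.add_comm a 1, Nat.shiftRight_add]
    rw [e2]
    show (Nat.land v 1) + (pc a (Nat.shiftRight v 1) + _) = (Nat.land v 1) + pc a (Nat.shiftRight v 1) + _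
    omega

theorem pc_land (W v : ℕ) : pc W (Nat.land v (fullS W)) = pc W v := by
  rw [pc_le_ncard_aux, pc_le_ncard_aux]
  congr 1
  apply Finset.filter_congr
  intro i hi
  have e : Nat.land v (fullS W) = v &&& fullS W := rfl
  rw [e, Nat.testBit_and, testBit_fullS]
  have : decide (i < W) = true := by simpa using Finset.mem_range.1 hi
  rw [this, Bool.and_true]

/-- A count of bits by chunks. -/
noncomputable def pcC (W : ℕ) : ℕ → ℕ → ℕ
  | 0, _ => 0
  | m + 1, v => Nat.add (pc W (Nat.land v (fullS W))) (pcC W m (Nat.shiftRight v W))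

theorem pcC_eq (W : ℕ) : ∀ (m v : ℕ), pcC W m v = pc (m * W) v := by
  intro m
  induction m with
  | zero => intro v; simp [pcC, pc]
  | succ m ih =>
    intro v
    show Nat.add (pc W (Nat.land v (fullS W))) (pcC W m (Nat.shiftRight v W)) = _
    rw [ih, show (m + 1) * W = W + m * W by ring, pc_add, pc_land]
    rfl

/-- The orbit of the fourth transposition. -/
noncomputable def orbS : ℕ :=
  Nat.lor (FF.rounds lY 3 (sgl 306501)) (FF.rounds lY 4 (sgl 297289))

theorem orb_count : 2160 ≤ pcC 4263 72 orbS := by decide +kernel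

theorem reach_orb : FF.Reach Q1p (pp 306501) orbS := by
  apply Reach_lor
  · exact FF.Reach_rounds (fun x hx => τ_mem_Q1p hx) 3 (FF.Reach_single Q1p (pp 306501))
  · refine Reach_trans (g := El w_w85) (q := pp 297289) ⟨Lw w_w85, w85_mem_Q1, rfl⟩ (El_pos _ _ (by rw [posW_eq_posF]; decide +kernel)) ?_
    exact FF.Reach_rounds (fun x hx => τ_mem_Q1p hx) 4 (FF.Reach_single Q1p (pp 297289))

theorem card_K_le : Nat.card (KS z2 dG (L 6) (L 7)) ≤ 4245696 := by
  have hle : (KS z2 dG (L 6) (L 7)).map Gm.subtype ≤ Q1p := by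
    rintro _ ⟨g, hg, rfl⟩
    refine ⟨g, mem_Q1.2 ?_, rfl⟩
    obtain ⟨c1, c2, c3, -⟩ := mem_KS.1 hg
    exact ⟨c1, c2, c3⟩
  have hfix : ∀ g ∈ (KS z2 dG (L 6) (L 7)).map Gm.subtype, g (pp 306501) = pp 306501 := by
    rintro _ ⟨g, hg, rfl⟩
    have h1 := (mem_K_iff.1 hg).2.2.2
    have h2 := φ_val g (lb 306501)
    rw [h1] at h2
    exact h2.symm
  have hc : 2160 ≤ {i : Pt | orbS.testBit i = true}.ncard := by
    have hn : (306936 : ℕ) ≤ FF.NP := by norm_num [FF]
    refine le_ncard_of_pc (n := 306936) hn _ _ ?_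
    have e : pc 306936 orbS = pcC 4263 72 orbS := by
      rw [pcC_eq]
    rw [e]
    exact orb_count
  have h1 := card_step hle hfix reach_orb hc
  have h2 : Nat.card ((KS z2 dG (L 6) (L 7)).map Gm.subtype) = Nat.card (KS z2 dG (L 6) (L 7)) :=
    Nat.card_congr (Subgroup.equivMapOfInjective _ Gm.subtype Gm.subtype_injective).symm.toEquiv
  rw [h2, card_Q1p] at h1
  have h3 := card_Q1_le
  omega

end Cfsg.Agent.Lib.Fischer.M24.Th13
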