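/-
The definitions for the check of the action of the generators on the orbit of `351` labels.
-/
import Mathlib
import Cfsg.Agent.Lib.Fischer.M24.Th13.DataO
import Cfsg.Agent.Lib.Fischer.M24.Th13.Data
import Cfsg.Agent.Lib.Fischer.M24.Th13.Exp

set_option autoImplicit false

namespace Cfsg.Agent.Lib.Fischer.M24.Th13

open Cfsg.Agent.Lib.Compute.BitNet Cfsg.Agent.Lib.Fischer.M24.Net Cfsg.Agent.Lib.Fischer.M24.Explicit
open Cfsg.Agent.Lib.Compute.ToddCoxeterCore

/-- The labels of the orbit. -/
noncomputable def omList : List ℕ := (List.range 351).map omAt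

/-- The labels of the orbit with a given bit. -/
noncomputable def Pb (b : ℕ) : ℕ := maskL (omList.filter (fun l => Nat.testBit l b))

/-- The generators preserve the orbit. -/
noncomputable def chkO (j : ℕ) : Bool := Nat.beq (wordA NL (uY j) (maskL omList)) (maskL omList)

/-- The check of a generator on a bit plane. -/
noncomputable def chkPl (j b : ℕ) : Bool :=
  frc (wordA NL (uY j) (Pb b)) (fun Q =>
    allFrom (fun i => decide (Nat.testBit Q (omAt i) = Nat.testBit (omAt (tbN j i)) b)) 351 0)

end Cfsg.Agent.Lib.Fischer.M24.Th13
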