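/-
The action of the generators on the orbit of `351` labels, checked on bit planes.
-/
import Mathlib
import Cfsg.Agent.Lib.Fischer.M24.Th13.PlDef

set_option autoImplicit false
set_option Elab.async false

namespace Cfsg.Agent.Lib.Fischer.M24.Th13

theorem chkO_0 : chkO 0 = true := by decide +kernel

theorem chkO_1 : chkO 1 = true := by decide +kernel

theorem chkO_2 : chkO 2 = true := by decide +kernel

theorem pl_0_0 : chkPl 0 0 = true := by decide +kernel

theorem pl_0_1 : chkPl 0 1 = true := by decide +kernel

theorem pl_0_2 : chkPl 0 2 = true := by decide +kernel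

theorem pl_0_3 : chkPl 0 3 = true := by decide +kernel

theorem pl_0_4 : chkPl 0 4 = true := by decide +kernel

theorem pl_0_5 : chkPl 0 5 = true := by decide +kernel

theorem pl_0_6 : chkPl 0 6 = true := by decide +kernel

theorem pl_0_7 : chkPl 0 7 = true := by decide +kernel

theorem pl_0_8 : chkPl 0 8 = true := by decide +kernel

theorem pl_0_9 : chkPl 0 9 = true := by decide +kernel

theorem pl_0_10 : chkPl 0 10 = true := by decide +kernel

theorem pl_0_11 : chkPl 0 11 = true := by decide +kernel

theorem pl_0_12 : chkPl 0 12 = true := by decide +kernel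

theorem pl_0_13 : chkPl 0 13 = true := by decide +kernel

theorem pl_1_0 : chkPl 1 0 = true := by decide +kernel

theorem pl_1_1 : chkPl 1 1 = true := by decide +kernel

theorem pl_1_2 : chkPl 1 2 = true := by decide +kernel

theorem pl_1_3 : chkPl 1 3 = true := by decide +kernel

theorem pl_1_4 : chkPl 1 4 = true := by decide +kernel

theorem pl_1_5 : chkPl 1 5 = true := by decide +kernel

theorem pl_1_6 : chkPl 1 6 = true := by decide +kernel

theorem pl_1_7 : chkPl 1 7 = true := by decide +kernel

theorem pl_1_8 : chkPl 1 8 = true := by decide +kernel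

theorem pl_1_9 : chkPl 1 9 = true := by decide +kernel

theorem pl_1_10 : chkPl 1 10 = true := by decide +kernel

theorem pl_1_11 : chkPl 1 11 = true := by decide +kernel

theorem pl_1_12 : chkPl 1 12 = true := by decide +kernel

theorem pl_1_13 : chkPl 1 13 = true := by decide +kernel

end Cfsg.Agent.Lib.Fischer.M24.Th13
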