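/-
The action of the generators on the orbit of `351` labels, checked on bit planes.
-/
import Mathlib
import Cfsg.Agent.Lib.Fischer.M24.Th13.PlDef

set_option autoImplicit false
set_option Elab.async false

namespace Cfsg.Agent.Lib.Fischer.M24.Th13

theorem pl_2_0 : chkPl 2 0 = true := by decide +kernel

theorem pl_2_1 : chkPl 2 1 = true := by decide +kernel

theorem pl_2_2 : chkPl 2 2 = true := by decide +kernel

theorem pl_2_3 : chkPl 2 3 = true := by decide +kernel

theorem pl_2_4 : chkPl 2 4 = true := by decide +kernel

theorem pl_2_5 : chkPl 2 5 = true := by decide +kernel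

theorem pl_2_6 : chkPl 2 6 = true := by decide +kernel

end Cfsg.Agent.Lib.Fischer.M24.Th13
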