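/-
The action of the generators on the orbit of `351` labels, checked on bit planes.
-/
import Mathlib
import Cfsg.Agent.Lib.Fischer.M24.Th13.PlDef

set_option autoImplicit false
set_option Elab.async false

namespace Cfsg.Agent.Lib.Fischer.M24.Th13

theorem pl_2_7 : chkPl 2 7 = true := by decide +kernel

theorem pl_2_8 : chkPl 2 8 = true := by decide +kernel

theorem pl_2_9 : chkPl 2 9 = true := by decide +kernel

theorem pl_2_10 : chkPl 2 10 = true := by decide +kernel

theorem pl_2_11 : chkPl 2 11 = true := by decide +kernel

theorem pl_2_12 : chkPl 2 12 = true := by decide +kernel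

theorem pl_2_13 : chkPl 2 13 = true := by decide +kernel

end Cfsg.Agent.Lib.Fischer.M24.Th13
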