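/-
The action of the generators on the orbit of `351` labels, checked on bit planes: all planes.
-/
import Mathlib
import Cfsg.Agent.Lib.Fischer.M24.Th13.PlA
import Cfsg.Agent.Lib.Fischer.M24.Th13.PlB
import Cfsg.Agent.Lib.Fischer.M24.Th13.PlC

set_option autoImplicit false

namespace Cfsg.Agent.Lib.Fischer.M24.Th13

theorem chkO_all : ∀ j, j < 3 → chkO j = true := by
  intro j hj
  match j, hj with
  | 0, _ => exact chkO_0
  | 1, _ => exact chkO_1
  | 2, _ => exact chkO_2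

theorem chkPl_all : ∀ j, j < 3 → ∀ b, b < 14 → chkPl j b = true := by
  intro j hj b hb
  match j, hj, b, hb with
  | 0, _, 0, _ => exact pl_0_0
  | 0, _, 1, _ => exact pl_0_1
  | 0, _, 2, _ => exact pl_0_2
  | 0, _, 3, _ => exact pl_0_3
  | 0, _, 4, _ => exact pl_0_4
  | 0, _, 5, _ => exact pl_0_5
  | 0, _, 6, _ => exact pl_0_6
  | 0, _, 7, _ => exact pl_0_7
  | 0, _, 8, _ => exact pl_0_8
  | 0, _, 9, _ => exact pl_0_9
  | 0, _, 10, _ => exact pl_0_10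
  | 0, _, 11, _ => exact pl_0_11
  | 0, _, 12, _ => exact pl_0_12
  | 0, _, 13, _ => exact pl_0_13
  | 1, _, 0, _ => exact pl_1_0
  | 1, _, 1, _ => exact pl_1_1
  | 1, _, 2, _ => exact pl_1_2
  | 1, _, 3, _ => exact pl_1_3
  | 1, _, 4, _ => exact pl_1_4
  | 1, _, 5, _ => exact pl_1_5
  | 1, _, 6, _ => exact pl_1_6
  | 1, _, 7, _ => exact pl_1_7
  | 1, _, 8, _ => exact pl_1_8
  | 1, _, 9, _ => exact pl_1_9
  | 1, _, 10, _ => exact pl_1_10
  | 1, _, 11, _ => exact pl_1_11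
  | 1, _, 12, _ => exact pl_1_12
  | 1, _, 13, _ => exact pl_1_13
  | 2, _, 0, _ => exact pl_2_0
  | 2, _, 1, _ => exact pl_2_1
  | 2, _, 2, _ => exact pl_2_2
  | 2, _, 3, _ => exact pl_2_3
  | 2, _, 4, _ => exact pl_2_4
  | 2, _, 5, _ => exact pl_2_5
  | 2, _, 6, _ => exact pl_2_6
  | 2, _, 7, _ => exact pl_2_7
  | 2, _, 8, _ => exact pl_2_8
  | 2, _, 9, _ => exact pl_2_9
  | 2, _, 10, _ => exact pl_2_10
  | 2, _, 11, _ => exact pl_2_11
  | 2, _, 12, _ => exact pl_2_12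
  | 2, _, 13, _ => exact pl_2_13

end Cfsg.Agent.Lib.Fischer.M24.Th13
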