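/-
The thirteenth power of the element of order `13` on the orbit of `351` labels, checked on bit planes.
-/
import Mathlib
import Cfsg.Agent.Lib.Fischer.M24.Th13.Gen
import Cfsg.Agent.Lib.Fischer.M24.Th13.PlDef

set_option autoImplicit false
set_option Elab.async false

namespace Cfsg.Agent.Lib.Fischer.M24.Th13

open Cfsg.Agent.Lib.Compute.BitNet Cfsg.Agent.Lib.Fischer.M24.Net Cfsg.Agent.Lib.Fischer.M24.Explicit

/-- The check of a word on the bit planes of the orbit. -/
noncomputable def chkFix (u : List ℕ) (b : ℕ) : Bool := Nat.beq (wordA NL u (Pb b)) (Pb b)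

/-- The check of a word on the orbit. -/
noncomputable def chkFixO (u : List ℕ) : Bool := Nat.beq (wordA NL u (maskL omList)) (maskL omList)

theorem x0_fO : chkFixO (rpt w_x0 13) = true := by decide +kernel

theorem x0_f0 : chkFix (rpt w_x0 13) 0 = true := by decide +kernel

theorem x0_f1 : chkFix (rpt w_x0 13) 1 = true := by decide +kernel

theorem x0_f2 : chkFix (rpt w_x0 13) 2 = true := by decide +kernel

theorem x0_f3 : chkFix (rpt w_x0 13) 3 = true := by decide +kernel

theorem x0_f4 : chkFix (rpt w_x0 13) 4 = true := by decide +kernel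

theorem x0_f5 : chkFix (rpt w_x0 13) 5 = true := by decide +kernel

theorem x0_f6 : chkFix (rpt w_x0 13) 6 = true := by decide +kernel

theorem x0_f7 : chkFix (rpt w_x0 13) 7 = true := by decide +kernel

theorem x0_f8 : chkFix (rpt w_x0 13) 8 = true := by decide +kernel

theorem x0_f9 : chkFix (rpt w_x0 13) 9 = true := by decide +kernel

theorem x0_f10 : chkFix (rpt w_x0 13) 10 = true := by decide +kernel

theorem x0_f11 : chkFix (rpt w_x0 13) 11 = true := by decide +kernel

theorem x0_f12 : chkFix (rpt w_x0 13) 12 = true := by decide +kernel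

theorem x0_f13 : chkFix (rpt w_x0 13) 13 = true := by decide +kernel

theorem x0_f_all : ∀ b, b < 14 → chkFix (rpt w_x0 13) b = true := by
  intro b hb
  match b, hb with
  | 0, _ => exact x0_f0
  | 1, _ => exact x0_f1
  | 2, _ => exact x0_f2
  | 3, _ => exact x0_f3
  | 4, _ => exact x0_f4
  | 5, _ => exact x0_f5
  | 6, _ => exact x0_f6
  | 7, _ => exact x0_f7
  | 8, _ => exact x0_f8
  | 9, _ => exact x0_f9
  | 10, _ => exact x0_f10
  | 11, _ => exact x0_f11
  | 12, _ => exact x0_f12
  | 13, _ => exact x0_f13

end Cfsg.Agent.Lib.Fischer.M24.Th13
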