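/-
The centralizer of the two triples in the explicit `Fi24` is isomorphic to `G₂(3)`.
-/
import Mathlib
import Cfsg.Agent.S1055
import Cfsg.Agent.S2101
import Cfsg.Agent.Lib.Compute.G23Main
import Cfsg.Agent.Lib.Compute.Schur2.PresIso
import Cfsg.Agent.Lib.Fischer.M24.Th13.PlAll
import Cfsg.Agent.Lib.Fischer.M24.Th13.PlX
import Cfsg.Agent.Lib.Fischer.M24.Th13.Bound

set_option autoImplicit false
set_option Elab.async false

namespace Cfsg.Agent.Lib.Fischer.M24.Th13

open Cfsg.Agent.Lib.Compute.BitNet Cfsg.Agent.Lib.Fischer.M24.Net Cfsg.Agent.Lib.Fischer.M24.Explicit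
open Cfsg.Agent.Lib.Compute.SchurLin Cfsg.Agent.Lib.Compute.ToddCoxeterCore
open Cfsg.Agent.Lib.Compute.G23 (GR card_GR)

/-! ### The orbit -/

theorem omAt_lt (i : ℕ) : omAt i < 2 ^ 14 := by
  have h : Nat.land (Nat.shiftRight omN (Nat.mul 14 i)) 16383 ≤ 16383 := Nat.and_le_right
  have e : omAt i = Nat.land (Nat.shiftRight omN (Nat.mul 14 i)) 16383 := rfl
  rw [e]
  exact lt_of_le_of_lt h (by norm_num)

theorem omAt_lt' (i : ℕ) : omAt i < 306936 := lt_of_lt_of_le (omAt_lt i) (by norm_num)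

/-- A label of the orbit. -/
noncomputable def lbO (i : ℕ) : Fin NN := ⟨omAt i, omAt_lt' i⟩

theorem lbO_val (i : ℕ) : (lbO i : ℕ) = omAt i := rfl

theorem omAt_mem {i : ℕ} (hi : i < 351) : omAt i ∈ omList := List.mem_map.2 ⟨i, List.mem_range.2 hi, rfl⟩

theorem mem_omList {l : ℕ} (h : l ∈ omList) : ∃ i, i < 351 ∧ l = omAt i := by
  obtain ⟨i, hi, rfl⟩ := List.mem_map.1 h
  exact ⟨i, List.mem_range.1 hi, rfl⟩

/-- The tables stay in range and are inverse to each other. -/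
noncomputable def chkTb : Bool :=
  allFrom (fun j => allFrom (fun i => Nat.ble (tbN j i) 350 && Nat.ble (tiN j i) 350 && Nat.beq (tbN j (tiN j i)) i) 351 0) 3 0

theorem chkTb_ok : chkTb = true := by decide +kernel

theorem tb_lt {j i : ℕ} (hj : j < 3) (hi : i < 351) : tbN j i < 351 := by
  have h := allFrom_spec (allFrom_spec chkTb_ok j (Nat.zero_le _) (by omega)) i (Nat.zero_le _) (by omega)
  simp only [Bool.and_eq_true] at h
  have := Nat.le_of_ble_eq_true h.1.1
  omega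

theorem ti_lt {j i : ℕ} (hj : j < 3) (hi : i < 351) : tiN j i < 351 := by
  have h := allFrom_spec (allFrom_spec chkTb_ok j (Nat.zero_le _) (by omega)) i (Nat.zero_le _) (by omega)
  simp only [Bool.and_eq_true] at h
  have := Nat.le_of_ble_eq_true h.1.2
  omega

theorem tb_ti {j i : ℕ} (hj : j < 3) (hi : i < 351) : tbN j (tiN j i) = i := by
  have h := allFrom_spec (allFrom_spec chkTb_ok j (Nat.zero_le _) (by omega)) i (Nat.zero_le _) (by omega)
  simp only [Bool.and_eq_true] at h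
  exact Nat.eq_of_beq_eq_true h.2

theorem testBit_O (l : ℕ) : (maskL omList).testBit l = true ↔ l ∈ omList := testBit_maskL _ _

theorem posW_mem {j l : ℕ} (hj : j < 3) : posW NL (uY j) l ∈ omList ↔ l ∈ omList := by
  have h1 := testBit_wordA (N := NL) FF.hv (uY j) (maskL omList) l
  rw [Nat.eq_of_beq_eq_true (chkO_all j hj)] at h1
  rw [← testBit_O, ← testBit_O, h1]

theorem testBit_Pb {b x : ℕ} (hx : x ∈ omList) : (Pb b).testBit x = x.testBit b := by
  unfold Pb
  cases h : x.testBit b with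
  | true =>
    exact (testBit_maskL _ _).2 (List.mem_filter.2 ⟨hx, h⟩)
  | false =>
    rw [Bool.eq_false_iff]
    intro h2
    have h3 := (List.mem_filter.1 ((testBit_maskL _ _).1 h2)).2
    rw [h] at h3
    cases h3

/-- The action of a generator on the orbit. -/
theorem link {j i : ℕ} (hj : j < 3) (hi : i < 351) : posW NL (uY j) (omAt i) = omAt (tbN j i) := by
  have hx : posW NL (uY j) (omAt i) ∈ omList := (posW_mem hj).2 (omAt_mem hi)
  obtain ⟨i', hi', hx'⟩ := mem_omList hx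
  apply Nat.eq_of_testBit_eq
  intro b
  by_cases hb : b < 14
  · have h1 := chkPl_all j hj b hb
    unfold chkPl at h1
    rw [frc_eq] at h1
    have h2 := of_decide_eq_true (allFrom_spec h1 i (Nat.zero_le _) (by omega))
    rw [testBit_wordA (N := NL) FF.hv, testBit_Pb hx] at h2
    exact h2
  · have hb' : 14 ≤ b := by omega
    have hlt : ∀ m, omAt m < 2 ^ b := fun m => lt_of_lt_of_le (omAt_lt m) (Nat.pow_le_pow_right (by norm_num) hb')
    rw [hx', Nat.testBit_lt_two_pow (hlt i'), Nat.testBit_lt_two_pow (hlt _)]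

theorem φ_LwW {u : List ℕ} {p q : ℕ} (hp : p < 306936) (hq : q < 306936) (h : posW NL u p = q) :
    φ (Lw u) ⟨p, hp⟩ = ⟨q, hq⟩ := by
  apply Fin.ext
  rw [φ_coe, Lw_val]
  exact (FF.elW_val u _).trans h

/-- The generators in the explicit `Fi24`. -/
noncomputable def gG (j : ℕ) : G2 := Lw (uY j)

theorem φ_gG {j i : ℕ} (hj : j < 3) (hi : i < 351) : φ (gG j) (lbO i) = lbO (tbN j i) :=
  φ_LwW _ _ (link hj hi)

theorem φ_gG_inv {j i : ℕ} (hj : j < 3) (hi : i < 351) : φ (gG j)⁻¹ (lbO i) = lbO (tiN j i) := by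
  rw [map_inv, Equiv.Perm.inv_eq_iff_eq, φ_gG hj (ti_lt hj hi), tb_ti hj hi]

/-- The action of a letter of the presentation. -/
noncomputable def stepT (x i : ℕ) : ℕ :=
  Bool.rec (motive := fun _ => ℕ) (tiN (Nat.div x 2) i) (tbN (Nat.div x 2) i) (Nat.beq (Nat.mod x 2) 0)

theorem φ_ltr {x i : ℕ} (hx : x < 6) (hi : i < 351) :
    φ (ltr gG x) (lbO i) = lbO (stepT x i) ∧ stepT x i < 351 := by
  have hj : x / 2 < 3 := by omega
  unfold ltr stepT
  cases h2 : Nat.beq (Nat.mod x 2) 0 with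
  | true =>
    have h : x % 2 = 0 := Nat.eq_of_beq_eq_true h2
    rw [if_pos h]
    exact ⟨φ_gG hj hi, tb_lt hj hi⟩
  | false =>
    have h : ¬ x % 2 = 0 := Nat.ne_of_beq_eq_false h2
    rw [if_neg h]
    exact ⟨φ_gG_inv hj hi, ti_lt hj hi⟩

/-- The action of a word of the presentation. -/
noncomputable def evalI (w : List ℕ) : ℕ → ℕ :=
  List.rec (motive := fun _ => ℕ → ℕ) (fun i => i) (fun x _ ih i => frc (stepT x i) ih) w

theorem φ_word {w : List ℕ} (hw : ∀ x ∈ w, x < 6) {i : ℕ} (hi : i < 351) :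
    φ (wordEl (ltr gG) w) (lbO i) = lbO (evalI w i) := by
  induction w generalizing i with
  | nil => simp [evalI]
  | cons x u ih =>
    obtain ⟨h1, h2⟩ := φ_ltr (hw x (by simp)) hi
    have e : evalI (x :: u) i = evalI u (stepT x i) := by
      show frc (stepT x i) (evalI u) = _
      rw [frc_eq]
    rw [wordEl_cons, map_mul, Equiv.Perm.mul_apply, h1, ih (fun y hy => hw y (List.mem_cons_of_mem _ hy)) h2, e]

/-- The check of a relator on the orbit. -/
noncomputable def chkE (k : ℕ) : Bool :=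
  allFrom (fun i => Nat.beq (evalI (Cfsg.Agent.Lib.Compute.Schur2.G23S.W.getD k []) i) i) 351 0

theorem chkE_ok : allFrom chkE 24 0 = true := by decide +kernel

theorem W_lt : ∀ k ∈ List.range 24, ∀ x ∈ Cfsg.Agent.Lib.Compute.Schur2.G23S.W.getD k [], x < 6 := by decide +kernel

/-! ### The subgroup generated by the generators -/

/-- The subgroup they generate. -/
noncomputable def K0 : Subgroup G2 := Subgroup.closure (gG '' Set.Iio 3)

theorem gG_mem (j : ℕ) : gG j ∈ K0 := by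
  by_cases h : j < 3
  · exact Subgroup.subset_closure ⟨j, h, rfl⟩
  · obtain ⟨i, rfl⟩ : ∃ i, j = i + 3 := ⟨j - 3, by omega⟩
    have e : gG (i + 3) = 1 := rfl
    rw [e]
    exact one_mem _

/-- The generators in the subgroup. -/
noncomputable def gB (j : ℕ) : K0 := ⟨gG j, gG_mem j⟩

theorem gB_gen : ∀ x : K0, x ∈ Subgroup.closure (gB '' Set.Iio 3) := by
  rintro ⟨x, hx⟩
  induction hx using Subgroup.closure_induction with
  | mem y hy =>
    obtain ⟨j, hj, rfl⟩ := hy
    exact Subgroup.subset_closure ⟨j, hj, rfl⟩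
  | one => exact one_mem _
  | mul a b ha hb h1 h2 => exact mul_mem h1 h2
  | inv a ha h1 => exact inv_mem h1

/-- The orbit as a type. -/
abbrev OmT : Type := {p : Fin NN // (p : ℕ) ∈ omList}

/-- The stabilizer of the orbit. -/
noncomputable def StO : Subgroup G2 where
  carrier := {g | ∀ p : Fin NN, (p : ℕ) ∈ omList ↔ ((φ g p : Fin NN) : ℕ) ∈ omList}
  one_mem' := by
    intro p
    rw [map_one]
    rfl
  mul_mem' := by
    intro g h hg hh p
    rw [map_mul, Equiv.Perm.mul_apply, hh p, hg (φ h p)]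
  inv_mem' := by
    intro g hg p
    have := hg (φ g⁻¹ p)
    rw [← Equiv.Perm.mul_apply, ← map_mul, mul_inv_cancel, map_one, Equiv.Perm.one_apply] at this
    exact this.symm

theorem K0_le_StO : K0 ≤ StO := by
  unfold K0
  rw [Subgroup.closure_le]
  rintro _ ⟨j, hj, rfl⟩ p
  have hj' : j < 3 := hj
  have e : ((φ (gG j) p : Fin NN) : ℕ) = posW NL (uY j) p := by
    rw [φ_coe]
    exact FF.elW_val (uY j) _
  rw [e]
  exact (posW_mem hj').symm

/-- The action of the stabilizer on the orbit. -/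
noncomputable def ρS : StO →* Equiv.Perm OmT where
  toFun g :=
    { toFun := fun p => ⟨φ g p.1, (g.2 p.1).1 p.2⟩
      invFun := fun p => ⟨φ (g : G2)⁻¹ p.1, ((inv_mem g.2) p.1).1 p.2⟩
      left_inv := by
        intro p
        apply Subtype.ext
        show φ (g : G2)⁻¹ (φ g p.1) = p.1
        rw [← Equiv.Perm.mul_apply, ← map_mul, inv_mul_cancel, map_one, Equiv.Perm.one_apply]
      right_inv := by
        intro p
        apply Subtype.ext
        show φ g (φ (g : G2)⁻¹ p.1) = p.1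
        rw [← Equiv.Perm.mul_apply, ← map_mul, mul_inv_cancel, map_one, Equiv.Perm.one_apply] }
  map_one' := by
    ext p
    show ((φ (1 : G2) p.1 : Fin NN) : ℕ) = p.1
    rw [map_one]
    rfl
  map_mul' := by
    intro g h
    ext p
    show ((φ ((g : G2) * h) p.1 : Fin NN) : ℕ) = ((φ g (φ h p.1) : Fin NN) : ℕ)
    rw [map_mul, Equiv.Perm.mul_apply]

/-- The action of the subgroup on the orbit. -/
noncomputable def ρ : K0 →* Equiv.Perm OmT := ρS.comp (Subgroup.inclusion K0_le_StO)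

theorem ρ_apply (g : K0) (p : OmT) : ((ρ g p).1 : Fin NN) = φ (g : G2) p.1 := rfl

/-- The generators of the image. -/
noncomputable def gR (j : ℕ) : ρ.range := ρ.rangeRestrict (gB j)

theorem gR_rel (k : ℕ) (hk : k < 24) :
    wordEl (ltr gR) (Cfsg.Agent.Lib.Compute.Schur2.G23S.W.getD k []) = 1 := by
  have e1 : wordEl (ltr gR) (Cfsg.Agent.Lib.Compute.Schur2.G23S.W.getD k []) =
      ρ.rangeRestrict (wordEl (ltr gB) (Cfsg.Agent.Lib.Compute.Schur2.G23S.W.getD k [])) :=
    (map_wordEl_ltr ρ.rangeRestrict gB _).symm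
  rw [e1]
  have e2 : ((wordEl (ltr gB) (Cfsg.Agent.Lib.Compute.Schur2.G23S.W.getD k []) : K0) : G2) =
      wordEl (ltr gG) (Cfsg.Agent.Lib.Compute.Schur2.G23S.W.getD k []) :=
    map_wordEl_ltr K0.subtype gB _
  apply Subtype.ext
  show ρ _ = 1
  ext ⟨p, hp⟩
  obtain ⟨i, hi, hpi⟩ := mem_omList hp
  have hpe : p = lbO i := Fin.ext hpi
  subst hpe
  show ((ρ _ ⟨lbO i, hp⟩).1 : ℕ) = _
  rw [ρ_apply, e2]
  have hw : ∀ x ∈ Cfsg.Agent.Lib.Compute.Schur2.G23S.W.getD k [], x < 6 := W_lt k (List.mem_range.2 hk)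
  have h1 := φ_word hw hi
  have h2 := allFrom_spec (allFrom_spec chkE_ok k (Nat.zero_le _) (by omega)) i (Nat.zero_le _) (by omega)
  rw [h1, Nat.eq_of_beq_eq_true h2]
  rfl

theorem gR_gen : ∀ x : ρ.range, x ∈ Subgroup.closure (gR '' Set.Iio 3) := by
  intro x
  obtain ⟨y, rfl⟩ := ρ.rangeRestrict_surjective x
  have h := Subgroup.mem_map_of_mem ρ.rangeRestrict (gB_gen y)
  rw [MonoidHom.map_closure, Set.image_image] at h
  exact h

theorem gR_ne : gR 0 ≠ 1 := by
  intro h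
  have h0 : (0 : ℕ) < 351 := by norm_num
  have hm : ((lbO 0 : Fin NN) : ℕ) ∈ omList := omAt_mem h0
  have h1 : ρ (gB 0) = 1 := congrArg Subtype.val h
  have h2 : (ρ (gB 0)) ⟨lbO 0, hm⟩ = ⟨lbO 0, hm⟩ := by
    rw [h1]
    rfl
  have h3 : φ (gG 0) (lbO 0) = lbO 0 := by
    have e := ρ_apply (gB 0) ⟨lbO 0, hm⟩
    rw [h2] at e
    exact e.symm
  rw [φ_gG (by norm_num) h0] at h3
  have h4 : Nat.beq (omAt (tbN 0 0)) (omAt 0) = false := by decide +kernel
  have h5 : omAt (tbN 0 0) = omAt 0 := by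
    rw [← lbO_val (tbN 0 0), ← lbO_val 0, h3]
  rw [h5, Nat.beq_refl] at h4
  cases h4

theorem simple_GR : IsSimpleGroup GR :=
  (Cfsg.Agent.S1055.result (F := ZMod 3) ⟨2, by decide, by decide⟩).1

theorem range_iso : Nonempty (ρ.range ≃* GR) := by
  obtain ⟨κ, -⟩ := Cfsg.Agent.Lib.Compute.Schur2.exists_equiv_of_relators
    (c := Cfsg.Agent.Lib.Compute.Schur2.G23S.c) Cfsg.Agent.S2101.sound Cfsg.Agent.S2101.hSB
    Cfsg.Agent.S2101.hrel gR_rel Cfsg.Agent.S2101.hgen gR_gen Cfsg.Agent.S2101.hcard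
    (Or.inr ⟨simple_GR, ⟨⟨gR 0, 1, gR_ne⟩⟩⟩)
  exact ⟨κ⟩

theorem K0_le : K0 ≤ KS z2 dG (L 6) (L 7) := by
  unfold K0
  rw [Subgroup.closure_le]
  rintro _ ⟨j, -, rfl⟩
  exact uY_mem_K j

theorem K0_eq_and : K0 = KS z2 dG (L 6) (L 7) ∧ Nonempty (K0 ≃* GR) ∧ Function.Injective ρ := by
  obtain ⟨κ⟩ := range_iso
  have h1 : Nat.card ρ.range = 4245696 := (Nat.card_congr κ.toEquiv).trans card_GR
  have h2 : Nat.card ρ.range ≤ Nat.card K0 := Nat.card_le_card_of_surjective _ ρ.rangeRestrict_surjective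
  have h3 : Nat.card K0 ≤ Nat.card (KS z2 dG (L 6) (L 7)) := Subgroup.card_le_of_le K0_le
  have h4 := card_K_le
  have h5 : Nat.card K0 = 4245696 := by omega
  refine ⟨Subgroup.eq_of_le_of_card_ge K0_le (by omega), ?_⟩
  have hbij : Function.Bijective ρ.rangeRestrict := by
    rw [Nat.bijective_iff_surjective_and_card]
    exact ⟨ρ.rangeRestrict_surjective, by omega⟩
  refine ⟨⟨(MulEquiv.ofBijective ρ.rangeRestrict hbij).trans κ⟩, fun a b hab => hbij.1 (Subtype.ext hab)⟩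

theorem K_iso : Nonempty (KS z2 dG (L 6) (L 7) ≃* GR) := by
  rw [← K0_eq_and.1]
  exact K0_eq_and.2.1

/-- A word fixing the labels of the orbit, of the subgroup, is trivial. -/
theorem eq_one_of_fixO {u : List ℕ} (hu : Lw u ∈ KS z2 dG (L 6) (L 7))
    (h : ∀ l, l ∈ omList → posW NL u l = l) : Lw u = 1 := by
  have hu' : Lw u ∈ K0 := by
    rw [K0_eq_and.1]
    exact hu
  have h1 : ρ ⟨Lw u, hu'⟩ = 1 := by
    ext ⟨p, hp⟩
    show ((φ (Lw u) p : Fin NN) : ℕ) = p
    rw [φ_coe]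
    exact (FF.elW_val u _).trans (h _ hp)
  have h2 := K0_eq_and.2.2 (h1.trans (map_one ρ).symm)
  exact congrArg Subtype.val h2

theorem fixO_of_chk {u : List ℕ} (h0 : chkFixO u = true) (h : ∀ b, b < 14 → chkFix u b = true) (l : ℕ)
    (hl : l ∈ omList) : posW NL u l = l := by
  have h1 := testBit_wordA (N := NL) FF.hv u (maskL omList) l
  rw [Nat.eq_of_beq_eq_true h0] at h1
  have hx : posW NL u l ∈ omList := by
    rw [← testBit_O, ← h1, testBit_O]
    exact hl
  obtain ⟨i', -, hx'⟩ := mem_omList hx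
  obtain ⟨i, -, hl'⟩ := mem_omList hl
  apply Nat.eq_of_testBit_eq
  intro b
  by_cases hb : b < 14
  · have h2 := testBit_wordA (N := NL) FF.hv u (Pb b) l
    rw [Nat.eq_of_beq_eq_true (h b hb), testBit_Pb hl, testBit_Pb hx] at h2
    exact h2.symm
  · have hb' : 14 ≤ b := by omega
    have hlt : ∀ m, omAt m < 2 ^ b := fun m => lt_of_lt_of_le (omAt_lt m) (Nat.pow_le_pow_right (by norm_num) hb')
    rw [hx', hl', Nat.testBit_lt_two_pow (hlt i'), Nat.testBit_lt_two_pow (hlt _)]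

theorem x0_pow : Lw w_x0 ^ 13 = 1 := by
  have e : Lw w_x0 ^ 13 = Lw (rpt w_x0 13) := by
    apply Subtype.ext
    rw [Subgroup.coe_pow, Lw_val, Lw_val, El_rpt]
  rw [e]
  apply eq_one_of_fixO
  · rw [← e]
    exact pow_mem x0_mem_K 13
  · exact fixO_of_chk x0_fO x0_f_all

theorem x0_order : orderOf (Lw w_x0) = 13 := orderOf_eq_prime x0_pow x0_ne

/-- The data on the explicit `Fi24`. -/
theorem pack2 : Pack D2 GR z2 dG (L 6) (L 7) (Lw w_x0) (Lw w_s1) := packG K_iso x0_order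

end Cfsg.Agent.Lib.Fischer.M24.Th13
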